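import Cfsg.Agent.BlkChar.IntCF
import Cfsg.Agent.BlkChar.GalAvg
import Cfsg.Agent.Block.LocalRing
import Mathlib

/-!
# Square roots of the sizes `|[M, c]|` as generalized characters: common definitions
-/

set_option autoImplicit false
set_option linter.style.haveILetI false
set_option linter.unusedSectionVars false

namespace Cfsg.Agent.Delta

universe u v

variable {p : ℕ} {H : Type u} [Group H] {V : Type v} [AddCommGroup V] [Module (ZMod p) V]

/-- The fixed points of one element. -/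
def fixSub (ρ : Representation (ZMod p) H V) (c : H) : Submodule (ZMod p) V :=
  LinearMap.ker ((1 : Module.End (ZMod p) V) - ρ c)

/-- The commutator subspace `[V, c]`. -/
def comSub (ρ : Representation (ZMod p) H V) (c : H) : Submodule (ZMod p) V :=
  LinearMap.range ((1 : Module.End (ZMod p) V) - ρ c)

theorem mem_fixSub {ρ : Representation (ZMod p) H V} {c : H} {x : V} :
    x ∈ fixSub ρ c ↔ ρ c x = x := by
  rw [fixSub, LinearMap.mem_ker, LinearMap.sub_apply, Module.End.one_apply, sub_eq_zero]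
  exact eq_comm

theorem sub_mem_comSub (ρ : Representation (ZMod p) H V) (c : H) (y : V) :
    y - ρ c y ∈ comSub ρ c := ⟨y, by simp⟩

theorem exists_of_mem_comSub {ρ : Representation (ZMod p) H V} {c : H} {k : V}
    (h : k ∈ comSub ρ c) : ∃ y, k = y - ρ c y := by
  obtain ⟨y, rfl⟩ := h
  exact ⟨y, by simp⟩

theorem card_mul_card [Finite V] (ρ : Representation (ZMod p) H V) (c : H) :
    Nat.card ↥(fixSub ρ c) * Nat.card ↥(comSub ρ c) = Nat.card V := by
  rw [Submodule.card_eq_card_quotient_mul_card (fixSub ρ c),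
    show Nat.card (V ⧸ fixSub ρ c) = Nat.card ↥(comSub ρ c) from
      Nat.card_congr (LinearMap.quotKerEquivRange ((1 : Module.End (ZMod p) V) - ρ c)).toEquiv]

theorem fixSub_eq_of_pow [Finite H] (ρ : Representation (ZMod p) H V)
    (a : (ZMod (Nat.card H))ˣ) (c : H) :
    fixSub ρ (c ^ (a : ZMod (Nat.card H)).val) = fixSub ρ c := by
  ext x
  rw [mem_fixSub, mem_fixSub]
  let S : Subgroup H :=
    { carrier := {d | ρ d x = x}
      one_mem' := by simp
      mul_mem' := fun {d e} hd he => by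
        show ρ (d * e) x = x
        rw [map_mul, Module.End.mul_apply, show ρ e x = x from he, show ρ d x = x from hd]
      inv_mem' := fun {d} hd => by
        show ρ d⁻¹ x = x
        conv_lhs => rw [← show ρ d x = x from hd]
        exact ρ.inv_self_apply d x }
  exact GalAvg.pow_unit_mem_iff a S c

theorem fixSub_eq_of_pow' [Finite H] (ρ : Representation (ZMod p) H V) {n : ℕ} [NeZero n]
    (hn : Nat.card H ∣ n) (a : (ZMod n)ˣ) (c : H) :
    fixSub ρ (c ^ (a : ZMod n).val) = fixSub ρ c := by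
  have h : (a : ZMod n).val ≡ ((ZMod.unitsMap hn a : (ZMod (Nat.card H))ˣ) : ZMod (Nat.card H)).val
      [MOD Nat.card H] := by
    rw [← ZMod.natCast_eq_natCast_iff, ZMod.natCast_zmod_val, ZMod.natCast_val,
      ZMod.unitsMap_def, Units.coe_map]
    rfl
  rw [show c ^ (a : ZMod n).val = c ^ ((ZMod.unitsMap hn a : (ZMod (Nat.card H))ˣ) :
    ZMod (Nat.card H)).val from pow_eq_pow_iff_modEq.mpr (h.of_dvd (orderOf_dvd_natCard c))]
  exact fixSub_eq_of_pow ρ _ c

theorem sub_pow_mem_comSub (ρ : Representation (ZMod p) H V) (c : H) (i : ℕ) :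
    ∀ u : V, u - ρ (c ^ i) u ∈ comSub ρ c := by
  induction i with
  | zero => intro u; simp
  | succ i ih =>
    intro u
    have h : u - ρ (c ^ (i + 1)) u = (u - ρ c u) + (ρ c u - ρ (c ^ i) (ρ c u)) := by
      rw [pow_succ, map_mul, Module.End.mul_apply]; abel
    rw [h]
    exact Submodule.add_mem _ (sub_mem_comSub ρ c u) (ih _)

theorem exists_decomp [Finite H] (hpH : ¬ p ∣ Nat.card H) [Fact p.Prime]
    (ρ : Representation (ZMod p) H V) (c : H) (u : V) :
    ∃ t ∈ fixSub ρ c, u - t ∈ comSub ρ c := by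
  set m := orderOf c
  have hm : (m : ZMod p) ≠ 0 := fun h =>
    hpH (((ZMod.natCast_eq_zero_iff _ p).mp h).trans (orderOf_dvd_natCard c))
  refine ⟨(m : ZMod p)⁻¹ • ∑ i ∈ Finset.range m, ρ (c ^ i) u, mem_fixSub.mpr ?_, ?_⟩
  · rw [map_smul, map_sum]
    congr 1
    simp only [← Module.End.mul_apply, ← map_mul, ← pow_succ']
    have h1 := Finset.sum_range_succ' (fun i => ρ (c ^ i) u) m
    rw [Finset.sum_range_succ, pow_orderOf_eq_one, pow_zero] at h1
    exact (add_right_cancel h1).symm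
  · have h : u - (m : ZMod p)⁻¹ • ∑ i ∈ Finset.range m, ρ (c ^ i) u =
        (m : ZMod p)⁻¹ • ∑ i ∈ Finset.range m, (u - ρ (c ^ i) u) := by
      rw [Finset.sum_sub_distrib, smul_sub, Finset.sum_const, Finset.card_range,
        ← Nat.cast_smul_eq_nsmul (ZMod p) m u, inv_smul_smul₀ hm]
    rw [h]
    exact Submodule.smul_mem _ _ (Submodule.sum_mem _ fun i _ => sub_pow_mem_comSub ρ c i u)

theorem inner_fix_com (ρ : Representation (ZMod p) H V) {B : LinearMap.BilinForm (ZMod p) V}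
    (hB : ∀ g : H, ∀ x y : V, B (ρ g x) (ρ g y) = B x y) {c : H} {t k : V}
    (ht : t ∈ fixSub ρ c) (hk : k ∈ comSub ρ c) : B t k = 0 := by
  obtain ⟨y, rfl⟩ := exists_of_mem_comSub hk
  rw [map_sub, sub_eq_zero]
  conv_rhs => rw [← mem_fixSub.mp ht, hB]

theorem com_inner_fix (ρ : Representation (ZMod p) H V) {B : LinearMap.BilinForm (ZMod p) V}
    (hB : ∀ g : H, ∀ x y : V, B (ρ g x) (ρ g y) = B x y) {c : H} {t k : V}
    (ht : t ∈ fixSub ρ c) (hk : k ∈ comSub ρ c) : B k t = 0 :=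
  inner_fix_com ρ (B := B.flip) (fun g x y => hB g y x) ht hk

theorem mem_comSub_of_orth [Finite H] (hpH : ¬ p ∣ Nat.card H) [Fact p.Prime]
    (ρ : Representation (ZMod p) H V) {B : LinearMap.BilinForm (ZMod p) V}
    (hB : ∀ g : H, ∀ x y : V, B (ρ g x) (ρ g y) = B x y)
    (hnd : ∀ x, (∀ y, B x y = 0) → x = 0) {c : H} {u : V}
    (h : ∀ t ∈ fixSub ρ c, B u t = 0) : u ∈ comSub ρ c := by
  obtain ⟨t, ht, hk⟩ := exists_decomp hpH ρ c u
  have h0 : t = 0 := hnd t fun y => by
    obtain ⟨t', ht', hk'⟩ := exists_decomp hpH ρ c y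
    have h1 : B t (y - t') = 0 := inner_fix_com ρ hB ht hk'
    have h2 : B (u - t) t' = 0 := com_inner_fix ρ hB ht' hk
    rw [map_sub, LinearMap.sub_apply, h t' ht', zero_sub, neg_eq_zero] at h2
    rwa [map_sub, h2, sub_zero] at h1
  subst h0
  simpa using hk

/-- The properties needed of a square root of `c ↦ |[V, c]|`. -/
structure IsDelta [Fintype H] (ρ : Representation (ZMod p) H V) (Mi : Ideal AlgInt) (n : ℕ)
    [NeZero n] (δ : (ZMod n)ˣ → H → ℂ) : Prop where
  mem : ∀ a, δ a ∈ IntCF.intCF H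
  isIntegral : ∀ a c, IsIntegral ℤ (δ a c)
  norm : ∀ a c, ‖δ a c‖ ^ 2 = (Nat.card ↥(comSub ρ c) : ℝ)
  small : ∀ a c, comSub ρ c ≠ ⊥ → MemLocalIdeal Mi (δ a c)
  one : ∀ a, δ a 1 = 1
  family : ∃ m : ℕ, m ≠ 0 ∧ ∀ c : H,
    (fun a : (ZMod n)ˣ => (m : ℂ) * δ a (c ^ (a : ZMod n).val)) ∈ GalAvg.cycFun n

theorem exists_eq_pow_card [Fact p.Prime] [Finite V] (W : Submodule (ZMod p) V) :
    ∃ j, Nat.card W = p ^ j :=
  ⟨Module.finrank (ZMod p) W, by rw [Module.natCard_eq_pow_finrank (K := ZMod p), Nat.card_zmod]⟩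

theorem dvd_card_of_ne_bot [Fact p.Prime] [Finite V] {W : Submodule (ZMod p) V} (h : W ≠ ⊥) :
    p ∣ Nat.card W := by
  obtain ⟨j, hj⟩ := exists_eq_pow_card W
  rcases j with _ | j
  · refine absurd ?_ h
    rw [pow_zero] at hj
    have := (Nat.card_eq_one_iff_unique.mp hj).1
    exact (Submodule.eq_bot_iff _).mpr fun x hx =>
      congrArg Subtype.val (Subsingleton.elim (⟨x, hx⟩ : W) 0)
  · exact hj ▸ dvd_pow_self p (Nat.succ_ne_zero j)

theorem root_sub_one_mem {Mi : Ideal AlgInt} (hM : IsPModular p Mi) {z : ℂ} (hz : z ^ p = 1) :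
    MemLocalIdeal Mi (z - 1) := by
  haveI := Block.isPrime_of_isPModular hM
  have hmem : MemLocalRing Mi z := Block.memLocalRing_of_pow_eq_one hM.1.ne_zero hz
  have h := Block.red_eq_one_of_pow_prime_pow hM (z := (⟨z, hmem⟩ : Block.localRing Mi)) (k := 1)
    (Subtype.ext (by simpa using hz))
  rw [← map_one (Block.red Mi), Block.red_eq_iff] at h
  simpa using h

end Cfsg.Agent.Delta
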