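import Mathlib

/-!
# Self-dual coprime modules over finite fields

A module with a non-degenerate invariant bilinear form is the sum of an invariant part with an
alternating and an invariant part with a symmetric non-degenerate invariant form.
-/

set_option autoImplicit false
set_option linter.style.haveILetI false
set_option linter.unusedSectionVars false

open Module

namespace Cfsg.Agent.FormSplit

universe u v w

variable {F : Type u} [Field F] [Finite F] {G : Type v} [Group G] [Finite G]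
variable {V : Type w} [AddCommGroup V] [Module F V] [FiniteDimensional F V]
variable (ρ : Representation F G V)

/-- Invariant subspace. -/
def Inv (Y : Submodule F V) : Prop := ∀ g : G, ∀ y ∈ Y, ρ g y ∈ Y

/-- Irreducible invariant subspace. -/
def Irr (U : Submodule F V) : Prop :=
  Inv ρ U ∧ U ≠ ⊥ ∧ ∀ Q : Submodule F V, Inv ρ Q → Q ≤ U → Q = ⊥ ∨ Q = U

/-- Left non-degenerate on `Y`. -/
def Nd (B : LinearMap.BilinForm F V) (Y : Submodule F V) : Prop :=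
  ∀ x ∈ Y, (∀ y ∈ Y, B x y = 0) → x = 0

/-- Invariant on `Y`. -/
def InvForm (B : LinearMap.BilinForm F V) (Y : Submodule F V) : Prop :=
  ∀ g : G, ∀ x ∈ Y, ∀ y ∈ Y, B (ρ g x) (ρ g y) = B x y

/-- The conclusion of the splitting theorem on `Y`. -/
def Good (Y : Submodule F V) : Prop :=
  ∃ U W : Submodule F V, Disjoint U W ∧ U ⊔ W = Y ∧ Inv ρ U ∧ Inv ρ W ∧
    (∃ A : LinearMap.BilinForm F V, (∀ x, A x x = 0) ∧ InvForm ρ A U ∧ Nd A U) ∧
    (∃ S : LinearMap.BilinForm F V, (∀ x y, S x y = S y x) ∧ InvForm ρ S W ∧ Nd S W) ∧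
    ((2 : F) = 0 → ∀ g : G, ∀ x ∈ W, ρ g x = x)

variable {ρ}

theorem inv_bot : Inv ρ (⊥ : Submodule F V) := fun g y hy => by
  rw [Submodule.mem_bot] at hy ⊢; rw [hy, map_zero]

theorem inv_sup {P Q : Submodule F V} (hP : Inv ρ P) (hQ : Inv ρ Q) : Inv ρ (P ⊔ Q) := by
  intro g y hy
  obtain ⟨a, ha, b, hb, rfl⟩ := Submodule.mem_sup.mp hy
  rw [map_add]
  exact Submodule.mem_sup.mpr ⟨_, hP g a ha, _, hQ g b hb, rfl⟩

theorem nd_bot (B : LinearMap.BilinForm F V) : Nd B ⊥ := fun x hx _ => (Submodule.mem_bot F).mp hx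

theorem good_of_alt {Y : Submodule F V} (hY : Inv ρ Y) (A : LinearMap.BilinForm F V)
    (h1 : ∀ x, A x x = 0) (h2 : InvForm ρ A Y) (h3 : Nd A Y) : Good ρ Y :=
  ⟨Y, ⊥, disjoint_bot_right, sup_bot_eq Y, hY, inv_bot, ⟨A, h1, h2, h3⟩,
    ⟨0, fun _ _ => rfl, fun _ _ _ _ _ => rfl, nd_bot _⟩,
    fun _ g x hx => by rw [Submodule.mem_bot] at hx; rw [hx, map_zero]⟩

theorem good_of_symm {Y : Submodule F V} (hY : Inv ρ Y) (S : LinearMap.BilinForm F V)
    (h1 : ∀ x y, S x y = S y x) (h2 : InvForm ρ S Y) (h3 : Nd S Y)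
    (h4 : (2 : F) = 0 → ∀ g : G, ∀ x ∈ Y, ρ g x = x) : Good ρ Y :=
  ⟨⊥, Y, disjoint_bot_left, bot_sup_eq Y, inv_bot, hY,
    ⟨0, fun _ => rfl, fun _ _ _ _ _ => rfl, nd_bot _⟩, ⟨S, h1, h2, h3⟩, h4⟩

theorem exists_proj {P Q : Submodule F V} (h : Disjoint P Q) :
    ∃ π : V →ₗ[F] V, (∀ x ∈ P, π x = x) ∧ ∀ x ∈ Q, π x = 0 := by
  obtain ⟨C0, hC0⟩ := Submodule.exists_isCompl (P ⊔ Q)
  have hc : IsCompl P (Q ⊔ C0) := by
    refine ⟨?_, ?_⟩
    · rw [Submodule.disjoint_def]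
      intro x hx hx'
      obtain ⟨q, hq, c, hc, rfl⟩ := Submodule.mem_sup.mp hx'
      have hcP : c ∈ P ⊔ Q := by
        have h1 : (q + c) - q = c := by abel
        rw [← h1]
        exact Submodule.sub_mem _ (Submodule.mem_sup_left hx) (Submodule.mem_sup_right hq)
      have hc0 : c = 0 := Submodule.disjoint_def.mp hC0.disjoint c hcP hc
      rw [hc0, add_zero] at hx ⊢
      exact Submodule.disjoint_def.mp h q hx hq
    · rw [codisjoint_iff, ← sup_assoc]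
      exact hC0.sup_eq_top
  refine ⟨P.subtype ∘ₗ Submodule.projectionOnto P (Q ⊔ C0) hc, fun x hx => ?_, fun x hx => ?_⟩
  · simp [Submodule.projectionOnto_apply_left hc ⟨x, hx⟩]
  · simp [Submodule.projectionOnto_apply_right hc ⟨x, Submodule.mem_sup_left hx⟩]

theorem disjoint_sup_sup {U W U₂ W₂ : Submodule F V} (h1 : Disjoint U W) (h2 : Disjoint U₂ W₂)
    (h : Disjoint (U ⊔ W) (U₂ ⊔ W₂)) : Disjoint (U ⊔ U₂) (W ⊔ W₂) := by
  rw [Submodule.disjoint_def]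
  intro x hx hx'
  obtain ⟨a, ha, b, hb, rfl⟩ := Submodule.mem_sup.mp hx
  obtain ⟨c, hc, d, hd, he⟩ := Submodule.mem_sup.mp hx'
  have h0 : a - c = d - b := by
    rw [sub_eq_sub_iff_add_eq_add, add_comm d c, he]
  have hac : a - c ∈ U ⊔ W :=
    Submodule.sub_mem _ (Submodule.mem_sup_left ha) (Submodule.mem_sup_right hc)
  have hdb : d - b ∈ U₂ ⊔ W₂ :=
    Submodule.sub_mem _ (Submodule.mem_sup_right hd) (Submodule.mem_sup_left hb)
  have hz := Submodule.disjoint_def.mp h _ hac (h0 ▸ hdb)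
  have hz' : d - b = 0 := h0 ▸ hz
  rw [sub_eq_zero] at hz hz'
  subst hz; subst hz'
  rw [Submodule.disjoint_def.mp h1 a ha hc, Submodule.disjoint_def.mp h2 d hb hd, add_zero]

theorem combine_aux {U U₂ : Submodule F V} (hd : Disjoint U U₂) (hU : Inv ρ U) (hU₂ : Inv ρ U₂)
    (A A₂ : LinearMap.BilinForm F V) (hA : InvForm ρ A U ∧ Nd A U)
    (hA₂ : InvForm ρ A₂ U₂ ∧ Nd A₂ U₂) :
    ∃ A' : LinearMap.BilinForm F V, InvForm ρ A' (U ⊔ U₂) ∧ Nd A' (U ⊔ U₂) ∧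
      ((∀ x, A x x = 0) → (∀ x, A₂ x x = 0) → ∀ x, A' x x = 0) ∧
      ((∀ x y, A x y = A y x) → (∀ x y, A₂ x y = A₂ y x) → ∀ x y, A' x y = A' y x) := by
  obtain ⟨π, hπ, hπ'⟩ := exists_proj hd
  obtain ⟨τ, hτ, hτ'⟩ := exists_proj hd.symm
  refine ⟨A.compl₁₂ π π + A₂.compl₁₂ τ τ, ?_, ?_, fun h1 h2 x => ?_, fun h1 h2 x y => ?_⟩
  · intro g x hx y hy
    obtain ⟨a, ha, b, hb, rfl⟩ := Submodule.mem_sup.mp hx
    obtain ⟨c, hc, d, hd, rfl⟩ := Submodule.mem_sup.mp hy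
    simp only [LinearMap.add_apply, LinearMap.compl₁₂_apply, map_add, hπ a ha, hπ' b hb, hτ' a ha,
      hτ b hb, hπ c hc, hπ' d hd, hτ' c hc, hτ d hd, hπ _ (hU g a ha), hπ _ (hU g c hc),
      hπ' _ (hU₂ g b hb), hπ' _ (hU₂ g d hd), hτ' _ (hU g a ha), hτ' _ (hU g c hc),
      hτ _ (hU₂ g b hb), hτ _ (hU₂ g d hd), map_zero, LinearMap.zero_apply, add_zero, zero_add,
      hA.1 g a ha c hc, hA₂.1 g b hb d hd]
  · intro x hx h
    obtain ⟨a, ha, b, hb, rfl⟩ := Submodule.mem_sup.mp hx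
    have ha0 : a = 0 := hA.2 a ha fun c hc => by
      have := h c (Submodule.mem_sup_left hc)
      simpa [hπ a ha, hπ' b hb, hπ c hc, hτ' c hc] using this
    have hb0 : b = 0 := hA₂.2 b hb fun d hd => by
      have := h d (Submodule.mem_sup_right hd)
      simpa [hτ' a ha, hτ b hb, hτ d hd, hπ' d hd] using this
    rw [ha0, hb0, add_zero]
  · simp [h1, h2]
  · simp [h1 (π x) (π y), h2 (τ x) (τ y)]

theorem good_sup {P Q : Submodule F V} (hP : Good ρ P) (hQ : Good ρ Q) (hd : Disjoint P Q) :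
    Good ρ (P ⊔ Q) := by
  obtain ⟨U, W, h1, rfl, hU, hW, ⟨A, hA0, hA⟩, ⟨S, hS0, hS⟩, htr⟩ := hP
  obtain ⟨U₂, W₂, h2, rfl, hU₂, hW₂, ⟨A₂, hA0₂, hA₂⟩, ⟨S₂, hS0₂, hS₂⟩, htr₂⟩ := hQ
  obtain ⟨A', ha1, ha2, ha3, -⟩ :=
    combine_aux (hd.mono le_sup_left le_sup_left) hU hU₂ A A₂ hA hA₂
  obtain ⟨S', hs1, hs2, -, hs4⟩ :=
    combine_aux (hd.mono le_sup_right le_sup_right) hW hW₂ S S₂ hS hS₂
  refine ⟨U ⊔ U₂, W ⊔ W₂, disjoint_sup_sup h1 h2 hd, sup_sup_sup_comm U U₂ W W₂,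
    inv_sup hU hU₂, inv_sup hW hW₂, ⟨A', ha3 hA0 hA0₂, ha1, ha2⟩, ⟨S', hs4 hS0 hS0₂, hs1, hs2⟩,
    fun h g x hx => ?_⟩
  obtain ⟨a, ha, b, hb, rfl⟩ := Submodule.mem_sup.mp hx
  rw [map_add, htr h g a ha, htr₂ h g b hb]

theorem exists_irr {Y : Submodule F V} (hY : Inv ρ Y) (h : Y ≠ ⊥) : ∃ U, U ≤ Y ∧ Irr ρ U := by
  haveI : Finite V := Module.finite_of_finite F
  haveI : Finite (Submodule F V) := Finite.of_injective _ SetLike.coe_injective
  obtain ⟨U, hU, hmin⟩ := Set.Finite.exists_minimal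
    (s := {Q : Submodule F V | Inv ρ Q ∧ Q ≠ ⊥ ∧ Q ≤ Y}) (Set.toFinite _) ⟨Y, hY, h, le_rfl⟩
  refine ⟨U, hU.2.2, hU.1, hU.2.1, fun Q hQ hQU => ?_⟩
  by_cases h0 : Q = ⊥
  · exact Or.inl h0
  · exact Or.inr (le_antisymm hQU (hmin ⟨hQ, h0, hQU.trans hU.2.2⟩ hQU))

theorem exists_compl (hG : (Nat.card G : F) ≠ 0) {Y R : Submodule F V} (hY : Inv ρ Y)
    (hR : Inv ρ R) (hRY : R ≤ Y) : ∃ C, Inv ρ C ∧ C ≤ Y ∧ Disjoint R C ∧ R ⊔ C = Y := by
  haveI : NeZero (Nat.card G : F) := ⟨hG⟩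
  obtain ⟨q, hq⟩ := exists_isCompl (⟨R, fun g v hv => hR g v hv⟩ : Subrepresentation ρ)
  have hd : Disjoint R q.toSubmodule :=
    disjoint_iff.mpr (congrArg Subrepresentation.toSubmodule (disjoint_iff.mp hq.1))
  have hc : R ⊔ q.toSubmodule = ⊤ :=
    congrArg Subrepresentation.toSubmodule (codisjoint_iff.mp hq.2)
  refine ⟨q.toSubmodule ⊓ Y, fun g y hy => ⟨q.apply_mem_toSubmodule g hy.1, hY g y hy.2⟩,
    inf_le_right, hd.mono_right inf_le_left, ?_⟩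
  rw [← sup_inf_assoc_of_le _ hRY, hc, top_inf_eq]

variable {B : LinearMap.BilinForm F V}

theorem binv_swap (hB : ∀ g : G, ∀ x y : V, B (ρ g x) (ρ g y) = B x y) (g : G) (x y : V) :
    B (ρ g x) y = B x (ρ g⁻¹ y) := by
  conv_lhs => rw [← ρ.self_inv_apply g y]
  exact hB g x _

/-- The pairing map from a subspace to the dual of another. -/
noncomputable def toDualOn (B : LinearMap.BilinForm F V) (P Q : Submodule F V) : P →ₗ[F] Dual F Q :=
  (B.compl₁₂ P.subtype Q.subtype)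

theorem toDualOn_apply (P Q : Submodule F V) (x : P) (y : Q) :
    toDualOn B P Q x y = B (x : V) (y : V) := rfl

theorem toDualOn_injective {P Q : Submodule F V} (h : ∀ x ∈ P, (∀ y ∈ Q, B x y = 0) → x = 0) :
    Function.Injective (toDualOn B P Q) := by
  rw [injective_iff_map_eq_zero]
  intro x hx
  refine Subtype.ext (h _ x.2 fun y hy => ?_)
  exact LinearMap.congr_fun hx ⟨y, hy⟩

theorem finrank_le_of_sep {P Q : Submodule F V} (h : ∀ x ∈ P, (∀ y ∈ Q, B x y = 0) → x = 0) :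
    finrank F P ≤ finrank F Q := by
  have := LinearMap.finrank_le_finrank_of_injective (toDualOn_injective h)
  rwa [Subspace.dual_finrank_eq] at this

theorem exists_of_sep {P Q : Submodule F V} (h : ∀ x ∈ P, (∀ y ∈ Q, B x y = 0) → x = 0)
    (hdim : finrank F P = finrank F Q) (f : V →ₗ[F] F) : ∃ x ∈ P, ∀ y ∈ Q, B x y = f y := by
  obtain ⟨x, hx⟩ := (LinearMap.injective_iff_surjective_of_finrank_eq_finrank
    (by rw [Subspace.dual_finrank_eq, hdim])).mp (toDualOn_injective h) (f ∘ₗ Q.subtype)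
  exact ⟨x, x.2, fun y hy => LinearMap.congr_fun hx ⟨y, hy⟩⟩

theorem nd_flip {Y : Submodule F V} (h : Nd B Y) : Nd B.flip Y := by
  intro x hx hx'
  by_contra hne
  obtain ⟨f, hf⟩ := not_forall.mp (mt (Module.forall_dual_apply_eq_zero_iff F x).mp hne)
  obtain ⟨z, hz, hzf⟩ := exists_of_sep h rfl f
  exact hf ((hzf x hx).symm.trans (hx' z hz))

/-- A non-zero pairing of irreducible invariant subspaces is non-degenerate. -/
theorem nd_pair (hB : ∀ g : G, ∀ x y : V, B (ρ g x) (ρ g y) = B x y) {U Z : Submodule F V}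
    (hU : Irr ρ U) (hZ : Inv ρ Z) (h : ∃ u ∈ U, ∃ z ∈ Z, B u z ≠ 0) :
    ∀ u ∈ U, (∀ z ∈ Z, B u z = 0) → u = 0 := by
  let K : Submodule F V :=
    { carrier := {u | u ∈ U ∧ ∀ z ∈ Z, B u z = 0}
      zero_mem' := ⟨U.zero_mem, fun z _ => by simp⟩
      add_mem' := fun {a b} ha hb => ⟨U.add_mem ha.1 hb.1, fun z hz => by
        simp [ha.2 z hz, hb.2 z hz]⟩
      smul_mem' := fun c a ha => ⟨U.smul_mem c ha.1, fun z hz => by simp [ha.2 z hz]⟩ }
  have hKinv : Inv ρ K := fun g u hu => ⟨hU.1 g u hu.1, fun z hz => by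
    rw [binv_swap hB]; exact hu.2 _ (hZ g⁻¹ z hz)⟩
  rcases hU.2.2 K hKinv (fun u hu => hu.1) with h0 | h0
  · intro u hu hu'
    have : u ∈ K := ⟨hu, hu'⟩
    rwa [h0, Submodule.mem_bot] at this
  · obtain ⟨u, hu, z, hz, hne⟩ := h
    exact absurd ((SetLike.ext_iff.mp h0 u).mpr hu |>.2 z hz) hne

/-- An irreducible partner of `U` pairing non-degenerately with it from the right. -/
theorem exists_partner (hG : (Nat.card G : F) ≠ 0)
    (hB : ∀ g : G, ∀ x y : V, B (ρ g x) (ρ g y) = B x y) {Y U : Submodule F V} (hY : Inv ρ Y)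
    (hnd : Nd B Y) (hU : Irr ρ U) (hUY : U ≤ Y) :
    ∃ Z, Z ≤ Y ∧ Irr ρ Z ∧ finrank F Z = finrank F U ∧
      (∀ u ∈ U, (∀ z ∈ Z, B u z = 0) → u = 0) ∧ ∀ z ∈ Z, (∀ u ∈ U, B u z = 0) → z = 0 := by
  let R : Submodule F V :=
    { carrier := {y | y ∈ Y ∧ ∀ u ∈ U, B u y = 0}
      zero_mem' := ⟨Y.zero_mem, fun u _ => by simp⟩
      add_mem' := fun {a b} ha hb => ⟨Y.add_mem ha.1 hb.1, fun u hu => by
        simp [ha.2 u hu, hb.2 u hu]⟩
      smul_mem' := fun c a ha => ⟨Y.smul_mem c ha.1, fun u hu => by simp [ha.2 u hu]⟩ }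
  have hR : Inv ρ R := fun g y hy => ⟨hY g y hy.1, fun u hu => by
    have h1 := hB g (ρ g⁻¹ u) y
    rw [ρ.self_inv_apply] at h1
    rw [h1]; exact hy.2 _ (hU.1 g⁻¹ u hu)⟩
  obtain ⟨Z, hZ, hZY, hd, hsup⟩ := exists_compl hG hY hR (fun y hy => hy.1)
  have hl : ∀ u ∈ U, (∀ z ∈ Z, B u z = 0) → u = 0 := by
    intro u hu h
    refine hnd u (hUY hu) fun y hy => ?_
    rw [← hsup] at hy
    obtain ⟨a, ha, b, hb, rfl⟩ := Submodule.mem_sup.mp hy
    rw [map_add, ha.2 u hu, h b hb, add_zero]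
  have hr : ∀ z ∈ Z, (∀ u ∈ U, B u z = 0) → z = 0 := fun z hz h =>
    Submodule.disjoint_def.mp hd z ⟨hZY hz, h⟩ hz
  have hdim : finrank F Z = finrank F U :=
    le_antisymm (finrank_le_of_sep (B := B.flip) hr) (finrank_le_of_sep hl)
  refine ⟨Z, hZY, ⟨hZ, fun h0 => hU.2.1 (by
    rw [Submodule.eq_bot_iff]
    exact fun u hu => hl u hu fun z hz => by
      rw [h0, Submodule.mem_bot] at hz; rw [hz, map_zero]), fun Q hQ hQZ => ?_⟩, hdim, hl, hr⟩
  by_cases h0 : Q = ⊥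
  · exact Or.inl h0
  refine Or.inr (Submodule.eq_of_le_of_finrank_le hQZ ?_)
  rw [hdim]
  obtain ⟨q, hq, hq0⟩ := Submodule.exists_mem_ne_zero_of_ne_bot h0
  refine finrank_le_of_sep (nd_pair hB hU hQ ?_)
  by_contra hc
  push Not at hc
  exact hq0 (hr q (hQZ hq) fun u hu => hc u hu q hq)

/-- Splitting off a non-degenerate invariant subspace. -/
theorem split (hB : ∀ g : G, ∀ x y : V, B (ρ g x) (ρ g y) = B x y) {Y T : Submodule F V}
    (hY : Inv ρ Y) (hnd : Nd B Y) (hT : Inv ρ T) (hTY : T ≤ Y) (hTnd : Nd B T) :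
    ∃ Y' : Submodule F V, Inv ρ Y' ∧ Nd B Y' ∧ Disjoint T Y' ∧ T ⊔ Y' = Y ∧ (T ≠ ⊥ → Y' < Y) := by
  let Y' : Submodule F V :=
    { carrier := {y | y ∈ Y ∧ ∀ t ∈ T, B y t = 0}
      zero_mem' := ⟨Y.zero_mem, fun t _ => by simp⟩
      add_mem' := fun {a b} ha hb => ⟨Y.add_mem ha.1 hb.1, fun t ht => by
        simp [ha.2 t ht, hb.2 t ht]⟩
      smul_mem' := fun c a ha => ⟨Y.smul_mem c ha.1, fun t ht => by simp [ha.2 t ht]⟩ }
  have hY'le : Y' ≤ Y := fun y hy => hy.1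
  have hdis : Disjoint T Y' := Submodule.disjoint_def.mpr fun x hx hx' => hTnd x hx hx'.2
  have hsup : T ⊔ Y' = Y := by
    refine le_antisymm (sup_le hTY hY'le) fun y hy => ?_
    obtain ⟨t, ht, hty⟩ := exists_of_sep hTnd rfl (B y)
    refine Submodule.mem_sup.mpr ⟨t, ht, y - t, ⟨Y.sub_mem hy (hTY ht), fun s hs => ?_⟩,
      add_sub_cancel _ _⟩
    rw [map_sub, LinearMap.sub_apply, hty s hs, sub_self]
  refine ⟨Y', fun g y hy => ⟨hY g y hy.1, fun t ht => ?_⟩, fun x hx h => ?_, hdis, hsup,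
    fun hT0 => lt_of_le_of_ne hY'le fun he => hT0 ?_⟩
  · rw [binv_swap hB]; exact hy.2 _ (hT g⁻¹ t ht)
  · refine hnd x hx.1 fun y hy => ?_
    rw [← hsup] at hy
    obtain ⟨a, ha, b, hb, rfl⟩ := Submodule.mem_sup.mp hy
    rw [map_add, hx.2 a ha, h b hb, add_zero]
  · rw [Submodule.eq_bot_iff]
    intro t ht
    exact Submodule.disjoint_def.mp hdis t ht ((SetLike.ext_iff.mp he t).mpr (hTY ht))

theorem good_irr (hB : ∀ g : G, ∀ x y : V, B (ρ g x) (ρ g y) = B x y) {U : Submodule F V}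
    (hU : Irr ρ U) (h : ∃ u ∈ U, ∃ z ∈ U, B u z ≠ 0) : Good ρ U := by
  by_cases h2 : (2 : F) = 0
  · by_cases hs : ∃ u ∈ U, ∃ z ∈ U, (B + B.flip) u z ≠ 0
    · refine good_of_alt hU.1 (B + B.flip) (fun x => ?_) (fun g x _ y _ => ?_)
        (nd_pair (fun g x y => ?_) hU hU.1 hs)
      · show B x x + B x x = 0
        rw [← two_mul, h2, zero_mul]
      · simp [hB]
      · simp [hB]
    · push Not at hs
      have hneg : ∀ a : F, -a = a := fun a => by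
        refine neg_eq_of_add_eq_zero_left ?_
        rw [← two_mul, h2, zero_mul]
      have hsym : ∀ u ∈ U, ∀ z ∈ U, B u z = B z u := fun u hu z hz => by
        have h' : B u z + B z u = 0 := hs u hu z hz
        rw [eq_neg_of_add_eq_zero_left h', hneg]
      by_cases hq : ∀ u ∈ U, B u u = 0
      · obtain ⟨C, hC⟩ := Submodule.exists_isCompl U
        let π : V →ₗ[F] V := U.subtype ∘ₗ Submodule.projectionOnto U C hC
        have hπ : ∀ x ∈ U, π x = x := fun x hx => by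
          simp [π, Submodule.projectionOnto_apply_left hC ⟨x, hx⟩]
        refine good_of_alt hU.1 (B.compl₁₂ π π)
          (fun x => hq _ (Submodule.projectionOnto U C hC x).2) ?_ ?_
        · intro g x hx y hy
          simp [LinearMap.compl₁₂_apply, hπ _ hx, hπ _ hy, hπ _ (hU.1 g x hx), hπ _ (hU.1 g y hy), hB]
        · intro x hx hx'
          refine nd_pair hB hU hU.1 h x hx fun y hy => ?_
          have := hx' y hy
          simpa [hπ _ hx, hπ _ hy] using this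
      · push Not at hq
        obtain ⟨u0, hu0, hu0'⟩ := hq
        let K : Submodule F V :=
          { carrier := {u | u ∈ U ∧ B u u = 0}
            zero_mem' := ⟨U.zero_mem, by simp⟩
            add_mem' := fun {a b} ha hb => ⟨U.add_mem ha.1 hb.1, by
              simp only [map_add, LinearMap.add_apply, ha.2, hb.2, zero_add, add_zero,
                hsym b hb.1 a ha.1]
              rw [← two_mul, h2, zero_mul]⟩
            smul_mem' := fun c a ha => ⟨U.smul_mem c ha.1, by simp [ha.2]⟩ }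
        have hK : K = ⊥ := (hU.2.2 K (fun g u hu => ⟨hU.1 g u hu.1, by rw [hB]; exact hu.2⟩)
          fun u hu => hu.1).resolve_right fun he => hu0' ((SetLike.ext_iff.mp he u0).mpr hu0).2
        have htriv : ∀ g : G, ∀ x ∈ U, ρ g x = x := fun g x hx => by
          have h' : ρ g x - x ∈ K := ⟨U.sub_mem (hU.1 g x hx) hx, by
            simp only [map_sub, LinearMap.sub_apply, hB, hsym x hx _ (hU.1 g x hx)]
            have he : B x x - B (ρ g x) x - (B (ρ g x) x - B x x)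
                = (2 : F) * (B x x - B (ρ g x) x) := by ring
            rw [he, h2, zero_mul]⟩
          rw [hK, Submodule.mem_bot, sub_eq_zero] at h'
          exact h'
        obtain ⟨C, hC⟩ := Submodule.exists_isCompl U
        have hπU : ∀ x, ((Submodule.projectionOnto U C hC x : U) : V) ∈ U := fun x => Subtype.prop _
        let π : V →ₗ[F] V := U.subtype ∘ₗ Submodule.projectionOnto U C hC
        have hπ : ∀ x ∈ U, π x = x := fun x hx => by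
          simp [π, Submodule.projectionOnto_apply_left hC ⟨x, hx⟩]
        refine good_of_symm hU.1 (B.compl₁₂ π π) (fun x y => hsym _ (hπU x) _ (hπU y)) ?_ ?_
          fun _ => htriv
        · intro g x hx y hy
          simp [LinearMap.compl₁₂_apply, hπ _ hx, hπ _ hy, hπ _ (hU.1 g x hx), hπ _ (hU.1 g y hy), hB]
        · intro x hx hx'
          refine nd_pair hB hU hU.1 h x hx fun y hy => ?_
          have := hx' y hy
          simpa [hπ _ hx, hπ _ hy] using this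
  · by_cases hs : ∃ u ∈ U, ∃ z ∈ U, (B + B.flip) u z ≠ 0
    · refine good_of_symm hU.1 (B + B.flip) (fun x y => ?_) (fun g x _ y _ => ?_)
        (nd_pair (fun g x y => ?_) hU hU.1 hs) fun h => absurd h h2
      · show B x y + B y x = B y x + B x y
        ring
      · simp [hB]
      · simp [hB]
    · push Not at hs
      obtain ⟨u, hu, z, hz, hne⟩ := h
      refine good_of_alt hU.1 (B - B.flip) (fun x => by simp) (fun g x _ y _ => by simp [hB])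
        (nd_pair (fun g x y => by simp [hB]) hU hU.1 ⟨u, hu, z, hz, fun h0 => hne ?_⟩)
      have h1 : B u z + B z u = 0 := hs u hu z hz
      have h0' : B u z - B z u = 0 := h0
      have h3 : (2 : F) * B u z = 0 := by linear_combination h1 + h0'
      exact (mul_eq_zero.mp h3).resolve_left h2

/-- The splitting theorem. -/
theorem good_of_nd (hG : (Nat.card G : F) ≠ 0)
    (hB : ∀ g : G, ∀ x y : V, B (ρ g x) (ρ g y) = B x y) (Y : Submodule F V) (hY : Inv ρ Y)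
    (hnd : Nd B Y) : Good ρ Y := by
  induction Y using WellFoundedLT.induction with
  | _ Y ih =>
  by_cases h0 : Y = ⊥
  · subst h0
    exact good_of_alt inv_bot 0 (fun _ => rfl) (fun _ _ _ _ _ => rfl) (nd_bot _)
  suffices h : ∃ T, T ≠ ⊥ ∧ Inv ρ T ∧ T ≤ Y ∧ Nd B T ∧ Good ρ T by
    obtain ⟨T, hT0, hT, hTY, hTnd, hTgood⟩ := h
    obtain ⟨Y', hY', hY'nd, hd, hsup, hlt⟩ := split hB hY hnd hT hTY hTnd
    rw [← hsup]
    exact good_sup hTgood (ih Y' (hlt hT0) hY' hY'nd) hd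
  have hirr : ∀ U, U ≤ Y → Irr ρ U → (∃ u ∈ U, ∃ z ∈ U, B u z ≠ 0) →
      ∃ T, T ≠ ⊥ ∧ Inv ρ T ∧ T ≤ Y ∧ Nd B T ∧ Good ρ T := fun U hUY hU h =>
    ⟨U, hU.2.1, hU.1, hUY, nd_pair hB hU hU.1 h, good_irr hB hU h⟩
  obtain ⟨U, hUY, hU⟩ := exists_irr hY h0
  by_cases hUU : ∃ u ∈ U, ∃ z ∈ U, B u z ≠ 0
  · exact hirr U hUY hU hUU
  push Not at hUU
  obtain ⟨Z₁, hZ₁Y, hZ₁, hd₁, hl₁, hr₁⟩ := exists_partner hG hB hY hnd hU hUY
  obtain ⟨Z₂, hZ₂Y, hZ₂, hd₂, hl₂, hr₂⟩ :=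
    exists_partner (B := B.flip) hG (fun g x y => hB g y x) hY (nd_flip hnd) hU hUY
  obtain ⟨u₀, hu₀, hu₀'⟩ := Submodule.exists_mem_ne_zero_of_ne_bot hU.2.1
  obtain ⟨z₁, hz₁, hz₁'⟩ : ∃ z ∈ Z₁, B u₀ z ≠ 0 := by
    by_contra h; push Not at h; exact hu₀' (hl₁ u₀ hu₀ h)
  obtain ⟨z₂, hz₂, hz₂'⟩ : ∃ z ∈ Z₂, B z u₀ ≠ 0 := by
    by_contra h; push Not at h; exact hu₀' (hl₂ u₀ hu₀ h)
  obtain ⟨Z, hZY, hZ, hZl, hZr⟩ : ∃ Z, Z ≤ Y ∧ Irr ρ Z ∧ (∃ u ∈ U, ∃ z ∈ Z, B u z ≠ 0) ∧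
      ∃ z ∈ Z, ∃ u ∈ U, B z u ≠ 0 := by
    by_cases hc₁ : ∃ z ∈ Z₁, ∃ u ∈ U, B z u ≠ 0
    · exact ⟨Z₁, hZ₁Y, hZ₁, ⟨u₀, hu₀, z₁, hz₁, hz₁'⟩, hc₁⟩
    by_cases hc₂ : ∃ u ∈ U, ∃ z ∈ Z₂, B u z ≠ 0
    · exact ⟨Z₂, hZ₂Y, hZ₂, hc₂, ⟨z₂, hz₂, u₀, hu₀, hz₂'⟩⟩
    push Not at hc₁ hc₂
    have hφ : ∀ x : Z₁, ∃ y : Z₂, ∀ u ∈ U, B (y : V) u = B u (x : V) := by
      intro x
      obtain ⟨y, hy, hy'⟩ := exists_of_sep (B := B) (P := Z₂) (Q := U) (fun z hz h => hr₂ z hz h)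
        hd₂ (B.flip x)
      exact ⟨⟨y, hy⟩, hy'⟩
    choose φ hφ' using hφ
    have hu₂ : ∀ {a b : V}, a ∈ Z₂ → b ∈ Z₂ → (∀ u ∈ U, B a u = B b u) → a = b := by
      intro a b ha hb h
      exact sub_eq_zero.mp (hr₂ _ (Z₂.sub_mem ha hb) fun u hu => by
        show B (a - b) u = 0
        rw [map_sub, LinearMap.sub_apply, h u hu, sub_self])
    let Φ : Z₁ →ₗ[F] V :=
      { toFun := fun x => (x : V) + (φ x : V)
        map_add' := fun a b => by
          have : (φ (a + b) : V) = (φ a : V) + (φ b : V) :=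
            hu₂ (φ (a + b)).2 (Z₂.add_mem (φ a).2 (φ b).2) fun u hu => by
              simp [hφ' _ u hu]
          rw [this, Submodule.coe_add]; abel
        map_smul' := fun c a => by
          have : (φ (c • a) : V) = c • (φ a : V) :=
            hu₂ (φ (c • a)).2 (Z₂.smul_mem c (φ a).2) fun u hu => by simp [hφ' _ u hu]
          rw [this, Submodule.coe_smul, RingHom.id_apply, smul_add] }
    have hΦinv : Inv ρ (LinearMap.range Φ) := by
      rintro g _ ⟨x, rfl⟩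
      refine ⟨⟨ρ g x, hZ₁.1 g _ x.2⟩, ?_⟩
      have : (φ ⟨ρ g x, hZ₁.1 g _ x.2⟩ : V) = ρ g (φ x : V) :=
        hu₂ (φ _).2 (hZ₂.1 g _ (φ x).2) fun u hu => by
          rw [hφ' _ u hu, binv_swap hB g (φ x : V) u, hφ' x _ (hU.1 g⁻¹ u hu)]
          have h1 := hB g (ρ g⁻¹ u) (x : V)
          rwa [ρ.self_inv_apply] at h1
      show (ρ g x : V) + (φ ⟨ρ g x, hZ₁.1 g _ x.2⟩ : V) = ρ g ((x : V) + (φ x : V))
      rw [this, map_add]
    refine ⟨LinearMap.range Φ, ?_, ⟨hΦinv, ?_, fun Q hQ hQZ => ?_⟩,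
      ⟨u₀, hu₀, _, ⟨⟨z₁, hz₁⟩, rfl⟩, ?_⟩, ⟨_, ⟨⟨z₁, hz₁⟩, rfl⟩, u₀, hu₀, ?_⟩⟩
    · rintro _ ⟨x, rfl⟩
      exact Y.add_mem (hZ₁Y x.2) (hZ₂Y (φ x).2)
    · intro h
      have h1 : B u₀ (Φ ⟨z₁, hz₁⟩) = 0 := by
        rw [(Submodule.eq_bot_iff _).mp h _ ⟨_, rfl⟩, map_zero]
      rw [show Φ ⟨z₁, hz₁⟩ = z₁ + (φ ⟨z₁, hz₁⟩ : V) from rfl, map_add,
        hc₂ u₀ hu₀ _ (φ _).2, add_zero] at h1
      exact hz₁' h1
    · have hc : Inv ρ ((Q.comap Φ).map Z₁.subtype) := by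
        rintro g _ ⟨x, hx, rfl⟩
        refine ⟨⟨ρ g x, hZ₁.1 g _ x.2⟩, ?_, rfl⟩
        have h1 := hQ g _ hx
        show Φ _ ∈ Q
        obtain ⟨x', hx'⟩ := hΦinv g (Φ x) ⟨x, rfl⟩
        have hval : (x' : V) = ρ g (x : V) := by
          refine sub_eq_zero.mp (hr₁ _ (Z₁.sub_mem x'.2 (hZ₁.1 g _ x.2)) fun u hu => ?_)
          have h2 := congrArg (B u) hx'
          rw [show Φ x' = (x' : V) + (φ x' : V) from rfl,
            show Φ x = (x : V) + (φ x : V) from rfl, map_add (ρ g), map_add, map_add,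
            hc₂ u hu _ (φ x').2, hc₂ u hu _ (hZ₂.1 g _ (φ x).2), add_zero, add_zero] at h2
          rw [map_sub, h2, sub_self]
        have : x' = ⟨ρ g x, hZ₁.1 g _ x.2⟩ := Subtype.ext hval
        rw [← this, hx']
        exact h1
      rcases hZ₁.2.2 _ hc (Submodule.map_subtype_le _ _) with h | h
      · left
        rw [Submodule.eq_bot_iff]
        intro q hq
        obtain ⟨x, rfl⟩ := hQZ hq
        have : (x : V) = 0 := (Submodule.eq_bot_iff _).mp h _ ⟨x, hq, rfl⟩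
        rw [show x = 0 from Subtype.ext this, map_zero]
      · right
        refine le_antisymm hQZ ?_
        rintro _ ⟨x, rfl⟩
        obtain ⟨x', hx', he⟩ := (SetLike.ext_iff.mp h (x : V)).mpr x.2
        rwa [← show x' = x from Subtype.ext he]
    · rw [show Φ ⟨z₁, hz₁⟩ = z₁ + (φ ⟨z₁, hz₁⟩ : V) from rfl, map_add,
        hc₂ u₀ hu₀ _ (φ _).2, add_zero]
      exact hz₁'
    · rw [show Φ ⟨z₁, hz₁⟩ = z₁ + (φ ⟨z₁, hz₁⟩ : V) from rfl, map_add, LinearMap.add_apply,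
        hc₁ z₁ hz₁ u₀ hu₀, zero_add, hφ' _ u₀ hu₀]
      exact hz₁'
  by_cases hZZ : ∃ a ∈ Z, ∃ b ∈ Z, B a b ≠ 0
  · exact hirr Z hZY hZ hZZ
  push Not at hZZ
  have n1 := nd_pair hB hU hZ.1 hZl
  have n2 := nd_pair hB hZ hU.1 hZr
  have hdis : Disjoint U Z := Submodule.disjoint_def.mpr fun x hx hx' =>
    n1 x hx fun z hz => hZZ x hx' z hz
  obtain ⟨π, hπ, hπ'⟩ := exists_proj hdis
  obtain ⟨τ, hτ, hτ'⟩ := exists_proj hdis.symm
  refine ⟨U ⊔ Z, fun h => hU.2.1 (le_bot_iff.mp (h ▸ le_sup_left)), inv_sup hU.1 hZ.1,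
    sup_le hUY hZY, ?_, good_of_alt (inv_sup hU.1 hZ.1) (B.compl₁₂ π τ - (B.compl₁₂ π τ).flip)
      (fun x => by simp) ?_ ?_⟩
  · intro x hx h
    obtain ⟨a, ha, b, hb, rfl⟩ := Submodule.mem_sup.mp hx
    have hb0 : b = 0 := n2 b hb fun u hu => by
      simpa [hUU a ha u hu] using h u (Submodule.mem_sup_left hu)
    subst hb0
    rw [add_zero] at h ⊢
    exact n1 a ha fun z hz => h z (Submodule.mem_sup_right hz)
  · intro g x hx y hy
    obtain ⟨a, ha, b, hb, rfl⟩ := Submodule.mem_sup.mp hx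
    obtain ⟨c, hc, d, hd, rfl⟩ := Submodule.mem_sup.mp hy
    simp [LinearMap.compl₁₂_apply, hπ a ha, hπ' b hb, hτ' a ha, hτ b hb, hπ c hc, hπ' d hd,
      hτ' c hc, hτ d hd, hπ _ (hU.1 g a ha), hπ _ (hU.1 g c hc), hπ' _ (hZ.1 g b hb),
      hπ' _ (hZ.1 g d hd), hτ' _ (hU.1 g a ha), hτ' _ (hU.1 g c hc), hτ _ (hZ.1 g b hb),
      hτ _ (hZ.1 g d hd), hB]
  · intro x hx h
    obtain ⟨a, ha, b, hb, rfl⟩ := Submodule.mem_sup.mp hx
    have ha0 : a = 0 := n1 a ha fun z hz => by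
      have := h z (Submodule.mem_sup_right hz)
      simpa [hπ a ha, hπ' b hb, hπ' z hz, hτ z hz] using this
    have hb0 : b = 0 := nd_pair (B := B.flip) (fun g x y => hB g y x) hZ hU.1
      (by obtain ⟨u, hu, z, hz, hne⟩ := hZl; exact ⟨z, hz, u, hu, hne⟩) b hb fun u hu => by
      have := h u (Submodule.mem_sup_left hu)
      simpa [hπ u hu, hτ' u hu, hτ' a ha, hτ b hb] using this
    rw [ha0, hb0, add_zero]

end Cfsg.Agent.FormSplit
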