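import Mathlib

/-!
# Linear characters of a finite abelian group and a freely acting group of automorphisms
-/

set_option autoImplicit false
set_option linter.style.haveILetI false
set_option linter.unusedSectionVars false

namespace Cfsg.Agent.BlkChar.FreeOrbit

open scoped ComplexConjugate

variable {P : Type*} [CommGroup P] [Fintype P]

theorem conj_hom (φ : P →* ℂˣ) (y : P) : conj (φ y : ℂ) = (φ⁻¹ y : ℂˣ) := by
  have hn : ‖(φ y : ℂ)‖ = 1 := by
    refine Complex.norm_eq_one_of_pow_eq_one (n := Fintype.card P) ?_ Fintype.card_ne_zero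
    rw [← Units.val_pow_eq_pow_val, ← map_pow, pow_card_eq_one, map_one, Units.val_one]
  rw [MonoidHom.inv_apply, Units.val_inv_eq_inv_val, ← Complex.inv_eq_conj hn]

open scoped Classical in
theorem sum_hom (φ : P →* ℂˣ) :
    ∑ y : P, (φ y : ℂ) = if φ = 1 then (Fintype.card P : ℂ) else 0 := by
  split_ifs with h
  · simp [h]
  · obtain ⟨x, hx⟩ := DFunLike.ne_iff.1 h
    have h2 : ∑ y : P, (φ y : ℂ) = (φ x : ℂ) * ∑ y : P, (φ y : ℂ) := by
      rw [Finset.mul_sum, ← Equiv.sum_comp (Equiv.mulLeft x) (fun y => (φ y : ℂ))]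
      simp
    have h3 : (1 - (φ x : ℂ)) * ∑ y : P, (φ y : ℂ) = 0 := by rw [sub_mul, one_mul, ← h2, sub_self]
    refine (mul_eq_zero.1 h3).resolve_left (sub_ne_zero.2 fun e => hx ?_)
    rw [MonoidHom.one_apply]
    exact Units.ext e.symm

open scoped Classical in
theorem sum_mul_conj (φ ψ : P →* ℂˣ) :
    ∑ y : P, (φ y : ℂ) * conj (ψ y : ℂ) = if φ = ψ then (Fintype.card P : ℂ) else 0 := by
  have h : ∀ y, (φ y : ℂ) * conj (ψ y : ℂ) = ((φ * ψ⁻¹) y : ℂˣ) := fun y => by
    rw [conj_hom, MonoidHom.mul_apply, Units.val_mul]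
  simp only [h, sum_hom]
  refine if_congr ⟨fun e => MonoidHom.ext fun y => ?_, fun e => MonoidHom.ext fun y => by simp [e]⟩ rfl rfl
  exact mul_inv_eq_one.1 (DFunLike.congr_fun e y)

instance homFinite : Finite (P →* ℂˣ) :=
  Nat.finite_of_card_ne_zero (by
    rw [CommGroup.card_monoidHom_of_hasEnoughRootsOfUnity]; exact Nat.card_pos.ne')

theorem card_hom : Nat.card (P →* ℂˣ) = Nat.card P :=
  CommGroup.card_monoidHom_of_hasEnoughRootsOfUnity P ℂ

/-- Second orthogonality relation. -/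
theorem sum_apply_eq_zero [Fintype (P →* ℂˣ)] {x : P} (hx : x ≠ 1) :
    ∑ φ : P →* ℂˣ, (φ x : ℂ) = 0 := by
  obtain ⟨χ, hχ⟩ := CommGroup.exists_apply_ne_one_of_hasEnoughRootsOfUnity P ℂ hx
  have h2 : ∑ φ : P →* ℂˣ, (φ x : ℂ) = (χ x : ℂ) * ∑ φ : P →* ℂˣ, (φ x : ℂ) := by
    rw [Finset.mul_sum, ← Equiv.sum_comp (Equiv.mulLeft χ) (fun φ : P →* ℂˣ => (φ x : ℂ))]
    simp
  have h3 : (1 - (χ x : ℂ)) * ∑ φ : P →* ℂˣ, (φ x : ℂ) = 0 := by
    rw [sub_mul, one_mul, ← h2, sub_self]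
  exact (mul_eq_zero.1 h3).resolve_left (sub_ne_zero.2 fun e => hχ (Units.ext e.symm))

variable (A : Subgroup (MulAut P))

/-- The orbit sum of a linear character. -/
noncomputable def osum [Fintype A] (ψ : P →* ℂˣ) (y : P) : ℂ :=
  ∑ a : A, (ψ ((a : MulAut P) y) : ℂ)

/-- The twist of a linear character by an automorphism. -/
def twist (ψ : P →* ℂˣ) (a : MulAut P) : P →* ℂˣ := ψ.comp a.toMonoidHom

theorem twist_apply (ψ : P →* ℂˣ) (a : MulAut P) (y : P) : twist ψ a y = ψ (a y) := rfl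

theorem twist_mul (ψ : P →* ℂˣ) (a b : MulAut P) : twist (twist ψ a) b = twist ψ (a * b) := rfl

theorem twist_one (ψ : P →* ℂˣ) : twist ψ 1 = ψ := rfl

theorem twist_ne_one {ψ : P →* ℂˣ} (h : ψ ≠ 1) (a : MulAut P) : twist ψ a ≠ 1 := fun e => h (by
  refine MonoidHom.ext fun y => ?_
  have := DFunLike.congr_fun e (a⁻¹ y)
  simpa [twist_apply] using this)

variable {A}
variable (hfree : ∀ a ∈ A, a ≠ 1 → ∀ y : P, a y = y → y = 1)

include hfree in
theorem twist_inj {ψ : P →* ℂˣ} (hψ : ψ ≠ 1) {a b : MulAut P} (ha : a ∈ A) (hb : b ∈ A)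
    (h : twist ψ a = twist ψ b) : a = b := by
  by_contra hne
  have hc : twist ψ (a * b⁻¹) = ψ := by
    rw [← twist_mul, h, twist_mul, mul_inv_cancel, twist_one]
  have hc1 : a * b⁻¹ ≠ 1 := fun e => hne (mul_inv_eq_one.1 e)
  have hinj : Function.Injective fun y : P => (a * b⁻¹) y * y⁻¹ := by
    intro y z e
    simp only [← div_eq_mul_inv] at e
    rw [div_eq_div_iff_div_eq_div, ← map_div] at e
    exact div_eq_one.1 (hfree _ (A.mul_mem ha (A.inv_mem hb)) hc1 _ e)
  refine hψ (MonoidHom.ext fun x => ?_)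
  obtain ⟨y, rfl⟩ := Finite.surjective_of_injective hinj x
  have h2 := DFunLike.congr_fun hc y
  rw [twist_apply] at h2
  show ψ ((a * b⁻¹) y * y⁻¹) = 1
  rw [map_mul, h2, ← map_mul, mul_inv_cancel, map_one]

/-- Two characters are in one orbit. -/
def Related (A : Subgroup (MulAut P)) (ψ φ : P →* ℂˣ) : Prop := ∃ a ∈ A, φ = twist ψ a

theorem related_refl (ψ : P →* ℂˣ) : Related A ψ ψ := ⟨1, A.one_mem, rfl⟩

theorem related_symm {ψ φ : P →* ℂˣ} (h : Related A ψ φ) : Related A φ ψ := by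
  obtain ⟨a, ha, rfl⟩ := h
  exact ⟨a⁻¹, A.inv_mem ha, by rw [twist_mul, mul_inv_cancel, twist_one]⟩

theorem related_trans {ψ φ θ : P →* ℂˣ} (h : Related A ψ φ) (h' : Related A φ θ) :
    Related A ψ θ := by
  obtain ⟨a, ha, rfl⟩ := h
  obtain ⟨b, hb, rfl⟩ := h'
  exact ⟨a * b, A.mul_mem ha hb, twist_mul ψ a b⟩

variable [Fintype A]

theorem osum_one (ψ : P →* ℂˣ) : osum A ψ 1 = (Fintype.card A : ℂ) := by
  simp [osum]

theorem osum_invariant (ψ : P →* ℂˣ) {a : MulAut P} (ha : a ∈ A) (y : P) :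
    osum A ψ (a y) = osum A ψ y := by
  rw [osum, osum]
  exact Fintype.sum_equiv (Equiv.mulRight ⟨a, ha⟩) _ _ fun b => rfl

theorem osum_twist (ψ : P →* ℂˣ) {a : MulAut P} (ha : a ∈ A) :
    osum A (twist ψ a) = osum A ψ := by
  funext y
  rw [osum, osum]
  exact Fintype.sum_equiv (Equiv.mulLeft ⟨a, ha⟩) _ _ fun b => rfl

theorem sum_osum {ψ : P →* ℂˣ} (hψ : ψ ≠ 1) : ∑ y : P, osum A ψ y = 0 := by
  classical
  simp only [osum]
  rw [Finset.sum_comm]
  refine Finset.sum_eq_zero fun a _ => ?_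
  have := sum_hom (twist ψ (a : MulAut P))
  rw [if_neg (twist_ne_one hψ _)] at this
  exact this

include hfree in
open scoped Classical in
theorem sum_osum_mul_conj {ψ φ : P →* ℂˣ} (hψ : ψ ≠ 1) :
    ∑ y : P, osum A ψ y * conj (osum A φ y) =
      if Related A ψ φ then (Fintype.card A : ℂ) * Fintype.card P else 0 := by
  simp only [osum, map_sum, Finset.sum_mul_sum]
  rw [Finset.sum_comm]
  have h : ∀ a b : A, ∑ y : P, (ψ ((a : MulAut P) y) : ℂ) * conj (φ ((b : MulAut P) y) : ℂ) =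
      if twist ψ (a : MulAut P) = twist φ (b : MulAut P) then (Fintype.card P : ℂ) else 0 :=
    fun a b => sum_mul_conj (twist ψ (a : MulAut P)) (twist φ (b : MulAut P))
  rw [Finset.sum_congr rfl fun a _ => Finset.sum_comm]
  simp only [h]
  by_cases hr : Related A ψ φ
  · obtain ⟨c, hc, rfl⟩ := hr
    rw [if_pos ⟨c, hc, rfl⟩]
    have h1 : ∀ a : A, ∑ b : A,
        (if twist ψ (a : MulAut P) = twist (twist ψ c) (b : MulAut P) then (Fintype.card P : ℂ)
          else 0) = Fintype.card P := by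
      intro a
      rw [Finset.sum_eq_single (⟨c, hc⟩⁻¹ * a : A)]
      · rw [if_pos]
        rw [twist_mul]
        simp
      · intro b _ hb
        rw [if_neg]
        intro e
        rw [twist_mul] at e
        have := twist_inj hfree hψ a.2 (A.mul_mem hc b.2) e
        exact hb (by rw [eq_inv_mul_iff_mul_eq]; exact Subtype.ext this.symm)
      · intro h; exact absurd (Finset.mem_univ _) h
    simp [h1]
  · rw [if_neg hr]
    refine Finset.sum_eq_zero fun a _ => Finset.sum_eq_zero fun b _ => if_neg fun e => hr ?_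
    refine ⟨(a : MulAut P) * (b : MulAut P)⁻¹, A.mul_mem a.2 (A.inv_mem b.2), ?_⟩
    rw [← twist_mul, e, twist_mul, mul_inv_cancel, twist_one]

include hfree in
open scoped Classical in
/-- Inner products of the functions `m - osum`. -/
theorem sum_gamma_mul_conj {ψ φ : P →* ℂˣ} (hψ : ψ ≠ 1) (hφ : φ ≠ 1) :
    ∑ y : P, ((Fintype.card A : ℂ) - osum A ψ y) * conj ((Fintype.card A : ℂ) - osum A φ y) =
      (Fintype.card A : ℂ) * Fintype.card P *
        ((Fintype.card A : ℂ) + if Related A ψ φ then 1 else 0) := by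
  have h : ∀ y, ((Fintype.card A : ℂ) - osum A ψ y) *
      conj ((Fintype.card A : ℂ) - osum A φ y) =
      (Fintype.card A : ℂ) * Fintype.card A - (Fintype.card A : ℂ) * conj (osum A φ y) -
        osum A ψ y * (Fintype.card A : ℂ) + osum A ψ y * conj (osum A φ y) := fun y => by
    rw [map_sub, Complex.conj_natCast]; ring
  simp only [h, Finset.sum_add_distrib, Finset.sum_sub_distrib, ← Finset.mul_sum,
    ← Finset.sum_mul, ← map_sum, sum_osum hψ, sum_osum hφ, sum_osum_mul_conj hfree hψ,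
    map_zero, Finset.sum_const, Finset.card_univ, nsmul_eq_mul]
  split_ifs <;> ring

/-- Fourier inversion away from the identity. -/
theorem apply_eq_neg_sum [Fintype (P →* ℂˣ)] (v : P → ℂ) {y : P} (hy : y ≠ 1) :
    v y = -∑ φ : P →* ℂˣ, ((Fintype.card P : ℂ)⁻¹ *
      ∑ x : P, v x * (1 - conj (φ x : ℂ))) * (φ y : ℂ) := by
  classical
  have hq : (Fintype.card P : ℂ) ≠ 0 := Nat.cast_ne_zero.2 Fintype.card_ne_zero
  have h1 : ∀ x, ∑ φ : P →* ℂˣ, conj (φ x : ℂ) * (φ y : ℂ) =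
      if x = y then (Fintype.card P : ℂ) else 0 := by
    intro x
    have e : ∀ φ : P →* ℂˣ, conj (φ x : ℂ) * (φ y : ℂ) = (φ (x⁻¹ * y) : ℂ) := fun φ => by
      rw [conj_hom, map_mul, Units.val_mul, MonoidHom.inv_apply, map_inv]
    simp only [e]
    split_ifs with hxy
    · subst hxy
      simp only [inv_mul_cancel, map_one, Units.val_one, Finset.sum_const, Finset.card_univ,
        nsmul_eq_mul, mul_one]
      rw [← Nat.card_eq_fintype_card, card_hom, Nat.card_eq_fintype_card]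
    · exact sum_apply_eq_zero fun e => hxy (inv_mul_eq_one.1 e)
  have h2 : ∀ φ : P →* ℂˣ, ((Fintype.card P : ℂ)⁻¹ * ∑ x : P, v x * (1 - conj (φ x : ℂ))) *
      (φ y : ℂ) = (Fintype.card P : ℂ)⁻¹ * ((∑ x : P, v x) * (φ y : ℂ)) -
        (Fintype.card P : ℂ)⁻¹ * ∑ x : P, v x * (conj (φ x : ℂ) * (φ y : ℂ)) := fun φ => by
    simp only [mul_sub, mul_one, Finset.sum_sub_distrib, sub_mul, Finset.sum_mul, Finset.mul_sum]
    congr 1 <;> exact Finset.sum_congr rfl fun x _ => by ring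
  simp only [h2, Finset.sum_sub_distrib, ← Finset.mul_sum]
  rw [sum_apply_eq_zero hy, Finset.sum_comm]
  simp only [← Finset.mul_sum, h1, mul_ite, mul_zero, Finset.sum_ite_eq', Finset.mem_univ, if_true,
    zero_sub, neg_neg]
  field_simp

end Cfsg.Agent.BlkChar.FreeOrbit
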