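import Cfsg.Agent.BlkChar.FrobeniusSections
import Cfsg.Agent.S0198

/-!
# Exceptional characters of the principal block, abelian Sylow subgroup with free normaliser action
-/

set_option autoImplicit false
set_option linter.style.haveILetI false
set_option linter.unusedSectionVars false

namespace Cfsg.Agent.BlkChar.FrobExceptional

open Cfsg
open Cfsg.Agent.BlkChar.FreeOrbit Cfsg.Agent.BlkChar.SectionLift Cfsg.Agent.BlkChar.FrobSections
open scoped ComplexConjugate Classical

universe u

variable {G : Type u} [Group G] [Fintype G] {p : ℕ} [hp : Fact p.Prime] {M : Ideal AlgInt}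
variable {P : Sylow p G} [hcomm : IsMulCommutative (P : Subgroup G)]

/-- The commutative group structure of the Sylow subgroup. -/
noncomputable abbrev commGroupSylow (P : Sylow p G) [IsMulCommutative (P : Subgroup G)] :
    CommGroup (P : Subgroup G) :=
  { (inferInstance : Group (P : Subgroup G)) with mul_comm := fun x y => mul_comm' x y }

attribute [local instance] commGroupSylow

variable [Fintype (P : Subgroup G)] [Fintype (autGroup P)]

/-- The function `m - osum`. -/
noncomputable def gam (ψ : ↥(P : Subgroup G) →* ℂˣ) : ↥(P : Subgroup G) → ℂ :=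
  fun y => (Fintype.card (autGroup P) : ℂ) - osum (autGroup P) ψ y

theorem gam_fused (h : Hyp P) (ψ : ↥(P : Subgroup G) →* ℂˣ) : Fused P (gam ψ) :=
  (fused_iff h).2 fun a ha y => by simp only [gam, osum_invariant ψ ha]

theorem gam_one (ψ : ↥(P : Subgroup G) →* ℂˣ) : gam ψ 1 = 0 := by simp [gam, osum_one]

theorem lift_gam_generalized (h : Hyp P) (ψ : ↥(P : Subgroup G) →* ℂˣ) :
    IsGeneralizedCharacter G (lift P (gam ψ)) := by
  refine lift_generalized (gam_fused h ψ) (ι := Option (autGroup P))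
    (fun o => o.elim (Fintype.card (autGroup P) : ℤ) (fun _ => -1))
    (fun o => o.elim 1 (fun a => twist ψ a)) fun y => ?_
  simp [gam, osum, Fintype.sum_option, twist_apply, sub_eq_add_neg]

theorem cast_card_aut : (Fintype.card (autGroup P) : ℂ) = (indexM P : ℂ) := by
  rw [← card_autGroup, Nat.card_eq_fintype_card]

theorem indexM_mul_card_ne_zero :
    (indexM P : ℂ) * Nat.card (P : Subgroup G) ≠ 0 :=
  mul_ne_zero (Nat.cast_ne_zero.2 indexM_ne_zero) (Nat.cast_ne_zero.2 Nat.card_pos.ne')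

theorem classInner_gam (h : Hyp P) {ψ φ : ↥(P : Subgroup G) →* ℂˣ} (hψ : ψ ≠ 1) (hφ : φ ≠ 1) :
    classInner (lift P (gam ψ)) (lift P (gam φ)) =
      (indexM P : ℂ) + if Related (autGroup P) ψ φ then 1 else 0 := by
  rw [classInner_lift h (gam_fused h ψ) (gam_one ψ) (lift_isClassFunction (gam_fused h φ))
    (lift_secConst (gam_fused h φ))]
  have e : ∀ y : (P : Subgroup G), gam ψ y * conj (lift P (gam φ) (y : G)) =
      ((Fintype.card (autGroup P) : ℂ) - osum (autGroup P) ψ y) *
        conj ((Fintype.card (autGroup P) : ℂ) - osum (autGroup P) φ y) := fun y => by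
    rw [lift_coe (gam_fused h φ)]; rfl
  rw [Finset.sum_congr rfl fun y _ => e y, sum_gamma_mul_conj (free h) hψ hφ, cast_card_aut,
    ← Nat.card_eq_fintype_card, ← mul_assoc, inv_mul_cancel₀ indexM_mul_card_ne_zero, one_mul]

theorem classInner_gam_trivial (h : Hyp P) {ψ : ↥(P : Subgroup G) →* ℂˣ} (hψ : ψ ≠ 1) :
    classInner (lift P (gam ψ)) ((Char.trivialIrr G : IrrCharacter G) : G → ℂ) = 1 := by
  rw [classInner_lift h (gam_fused h ψ) (gam_one ψ)
    (Char.irr_isClassFunction (Char.trivialIrr G).2) (fun y _ x _ => rfl)]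
  simp only [Char.trivialIrr, map_one, mul_one, gam, Finset.sum_sub_distrib, sum_osum hψ,
    Finset.sum_const, Finset.card_univ, nsmul_eq_mul, sub_zero, cast_card_aut]
  rw [← Nat.card_eq_fintype_card, mul_comm (Nat.card (P : Subgroup G) : ℂ),
    inv_mul_cancel₀ indexM_mul_card_ne_zero]

theorem exists_reps (h : Hyp P) :
    ∃ (r : ℕ) (rep : Fin r → (↥(P : Subgroup G) →* ℂˣ)),
      (∀ i, rep i ≠ 1) ∧ (∀ i j, Related (autGroup P) (rep i) (rep j) → i = j) ∧
      (∀ ψ, ψ ≠ 1 → ∃ i, Related (autGroup P) (rep i) ψ) ∧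
      r * indexM P + 1 = Nat.card (P : Subgroup G) ∧
      ∀ [Fintype (↥(P : Subgroup G) →* ℂˣ)] (f : (↥(P : Subgroup G) →* ℂˣ) → ℂ),
        ∑ ψ, f ψ = f 1 + ∑ i, ∑ a : autGroup P, f (twist (rep i) a) := by
  letI : Fintype (↥(P : Subgroup G) →* ℂˣ) := Fintype.ofFinite _
  let Ω := {ψ : ↥(P : Subgroup G) →* ℂˣ // ψ ≠ 1}
  let sd : Setoid Ω := ⟨fun ψ φ => Related (autGroup P) ψ.1 φ.1,
    ⟨fun ψ => related_refl ψ.1, fun h => related_symm h, fun h h' => related_trans h h'⟩⟩
  letI : Fintype (Quotient sd) := Fintype.ofFinite _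
  let eO : Fin (Fintype.card (Quotient sd)) ≃ Quotient sd := (Fintype.equivFin _).symm
  let rep : Fin (Fintype.card (Quotient sd)) → Ω := fun i => (eO i).out
  have hrel : ∀ i j, Related (autGroup P) (rep i).1 (rep j).1 → i = j := by
    intro i j hij
    apply eO.injective
    rw [← Quotient.out_eq (eO i), ← Quotient.out_eq (eO j)]
    exact Quotient.sound hij
  have hcov : ∀ ψ : Ω, ∃ i, Related (autGroup P) (rep i).1 ψ.1 := fun ψ => ⟨eO.symm ⟦ψ⟧, by
    show sd.r (eO (eO.symm ⟦ψ⟧)).out ψ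
    rw [Equiv.apply_symm_apply]
    exact Quotient.mk_out ψ⟩
  let F : Fin (Fintype.card (Quotient sd)) × autGroup P → Ω :=
    fun t => ⟨twist (rep t.1).1 t.2, twist_ne_one (rep t.1).2 _⟩
  have hFbij : Function.Bijective F := by
    constructor
    · rintro ⟨i, a⟩ ⟨j, b⟩ e
      have e' : twist (rep i).1 a = twist (rep j).1 b := congrArg Subtype.val e
      have hij : i = j := hrel i j (related_trans ⟨a, a.2, rfl⟩
        (related_symm ⟨b, b.2, e'⟩))
      subst hij
      rw [Subtype.ext (twist_inj (free h) (rep i).2 a.2 b.2 e')]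
    · intro ψ
      obtain ⟨i, a, ha, e⟩ := hcov ψ
      exact ⟨⟨i, ⟨a, ha⟩⟩, Subtype.ext e.symm⟩
  refine ⟨_, fun i => (rep i).1, fun i => (rep i).2, hrel, fun ψ hψ => hcov ⟨ψ, hψ⟩, ?_, ?_⟩
  · have hΩ : Fintype.card Ω + 1 = Nat.card (P : Subgroup G) := by
      rw [Fintype.card_subtype_compl, Fintype.card_subtype_eq,
        Nat.sub_add_cancel Fintype.card_pos, ← Nat.card_eq_fintype_card, card_hom]
    rw [← hΩ, ← Fintype.card_of_bijective hFbij, Fintype.card_prod, Fintype.card_fin,
      ← Nat.card_eq_fintype_card (α := autGroup P), card_autGroup]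
  · intro inst f
    rw [Fintype.sum_eq_add_sum_compl (1 : ↥(P : Subgroup G) →* ℂˣ),
      ← Fintype.sum_prod_type' (f := fun (i : Fin (Fintype.card (Quotient sd))) (a : autGroup P) =>
        f (twist (rep i).1 a))]
    congr 1
    rw [Finset.sum_subtype (p := fun ψ => ψ ≠ (1 : ↥(P : Subgroup G) →* ℂˣ)) _ (by simp) f]
    exact (Fintype.sum_bijective F hFbij _ _ fun t => rfl).symm

/-- A member of the principal block is determined on the nontrivial elements of `P` by its
products with the lifts. -/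
theorem apply_eq (hM : IsPModular p M) (h : Hyp P) {r : ℕ}
    (rep : Fin r → (↥(P : Subgroup G) →* ℂˣ)) [Fintype (↥(P : Subgroup G) →* ℂˣ)]
    (hsum : ∀ f : (↥(P : Subgroup G) →* ℂˣ) → ℂ,
      ∑ ψ, f ψ = f 1 + ∑ i, ∑ a : autGroup P, f (twist (rep i) a))
    {χ : IrrCharacter G} (hχ : χ ∈ principalBlock M G) (n : Fin r → ℤ)
    (hn : ∀ i, classInner (lift P (gam (rep i))) (χ : G → ℂ) = (n i : ℂ))
    {y : (P : Subgroup G)} (hy : y ≠ 1) :
    (χ : G → ℂ) y = -∑ i, (n i : ℂ) * osum (autGroup P) (rep i) y := by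
  have hcl := Char.irr_isClassFunction χ.2
  rw [apply_eq_neg_sum (fun x : ↥(P : Subgroup G) => (χ : G → ℂ) x) hy, hsum]
  simp only [MonoidHom.one_apply, Units.val_one, map_one, sub_self, mul_zero,
    Finset.sum_const_zero, zero_mul, zero_add, osum]
  congr 1
  refine Finset.sum_congr rfl fun i _ => ?_
  rw [Finset.mul_sum]
  refine Finset.sum_congr rfl fun b _ => ?_
  congr 1
  have hinv : ∀ (c : autGroup P) (x : ↥(P : Subgroup G)),
      (χ : G → ℂ) (((c : MulAut (P : Subgroup G)) x : (P : Subgroup G)) : G) = (χ : G → ℂ) x := by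
    intro c x
    obtain ⟨g, hg⟩ := isConj_iff.1 ((isConj_iff_aut h).2 ⟨c, c.2, rfl⟩ :
      IsConj (x : G) (((c : MulAut (P : Subgroup G)) x : (P : Subgroup G)) : G))
    rw [← hg]
    exact hcl _ _
  have hT : ∀ c : autGroup P, ∑ x : ↥(P : Subgroup G), (χ : G → ℂ) x *
      (1 - conj ((twist (rep i) c) x : ℂ)) =
      ∑ x : ↥(P : Subgroup G), (χ : G → ℂ) x * (1 - conj (rep i x : ℂ)) := fun c => by
    refine Fintype.sum_equiv (c : MulAut (P : Subgroup G)).toEquiv _ _ fun x => ?_
    show _ = (χ : G → ℂ) (((c : MulAut (P : Subgroup G)) x : (P : Subgroup G)) : G) * _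
    rw [hinv c x]
    rfl
  rw [hT b]
  have e := hn i
  rw [classInner_lift h (gam_fused h _) (gam_one _) hcl (principal_secConst hM h hχ)] at e
  have e2 := congrArg conj e
  simp only [map_mul, map_sum, map_inv₀, Complex.conj_natCast, Complex.conj_conj, map_intCast]
    at e2
  have e3 : ∀ x : ↥(P : Subgroup G), conj (gam (rep i) x) * (χ : G → ℂ) x =
      ∑ c : autGroup P, (χ : G → ℂ) x * (1 - conj ((twist (rep i) c) x : ℂ)) := fun x => by
    simp only [gam, osum, map_sub, map_sum, Complex.conj_natCast, ← Finset.mul_sum,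
      Finset.sum_sub_distrib, Finset.sum_const, Finset.card_univ, nsmul_eq_mul, mul_one,
      twist_apply]
    ring
  simp only [e3] at e2
  rw [Finset.sum_comm, Finset.sum_congr rfl fun c _ => hT c, Finset.sum_const, Finset.card_univ,
    nsmul_eq_mul, cast_card_aut] at e2
  rw [← e2, ← Nat.card_eq_fintype_card]
  have h1 : (indexM P : ℂ) ≠ 0 := Nat.cast_ne_zero.2 indexM_ne_zero
  field_simp

/-- The coherent system inside the principal block. -/
theorem exists_exceptional (hM : IsPModular p M) (h : Hyp P) {r : ℕ} (hr : 2 ≤ r)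
    (rep : Fin r → (↥(P : Subgroup G) →* ℂˣ)) (hne : ∀ i, rep i ≠ 1)
    (hrel : ∀ i j, Related (autGroup P) (rep i) (rep j) → i = j) :
    ∃ (δ d : ℤ) (η : Fin r → IrrCharacter G) (a : IrrCharacter G → ℤ),
      (δ = 1 ∨ δ = -1) ∧ Function.Injective η ∧ (∀ k, η k ∈ principalBlock M G) ∧
      a (Char.trivialIrr G) = 1 ∧ (∀ k, η k ≠ Char.trivialIrr G) ∧
      (∀ k i, classInner (lift P (gam (rep i))) (η k : G → ℂ) =
        ((d - δ * (if i = k then 1 else 0) : ℤ) : ℂ)) ∧
      (∀ χ : IrrCharacter G, (∀ k, η k ≠ χ) → ∀ i,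
        classInner (lift P (gam (rep i))) (χ : G → ℂ) = (a χ : ℂ)) ∧
      (∀ g : G, ¬ p ∣ orderOf g → ∀ i j, (η i : G → ℂ) g = (η j : G → ℂ) g) ∧
      (d - δ) ^ 2 + ((r : ℤ) - 1) * d ^ 2 +
        ∑ χ ∈ Finset.univ.filter (fun χ => χ ∈ principalBlock M G ∧ ∀ k, η k ≠ χ), a χ ^ 2 =
          (indexM P : ℤ) + 1 := by
  have hgram : ∀ i j, classInner (lift P (gam (rep i))) (lift P (gam (rep j))) =
      (indexM P : ℂ) + if i = j then 1 else 0 := fun i j => by
    rw [classInner_gam h (hne i) (hne j)]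
    congr 1
    exact if_congr ⟨hrel i j, fun e => e ▸ related_refl _⟩ rfl rfl
  obtain ⟨i₀, i₁, h01⟩ : ∃ i₀ i₁ : Fin r, i₀ ≠ i₁ :=
    ⟨⟨0, by omega⟩, ⟨1, by omega⟩, by simp⟩
  have hLone : ∀ (g : G), ¬ p ∣ orderOf g → ∀ i, lift P (gam (rep i)) g = 0 := fun g hg i =>
    (lift_regular (gam_fused h _) hg).trans (gam_one _)
  have hone : ∀ i, lift P (gam (rep i)) (1 : G) = 0 :=
    hLone 1 (by simpa using hp.out.ne_one)
  obtain ⟨ε, hε, μ, hμ, hμinj, hτ⟩ := Cfsg.Agent.S0198.result r i₀
    (fun i => lift P (gam (rep i₀)) - lift P (gam (rep i))) (sub_self _)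
    (fun i => CharInd.genChar_sub (lift_gam_generalized h _) (lift_gam_generalized h _))
    (fun i => by simp [hone])
    (fun i j hi hj => by
      simp only [Char.classInner_sub_left, Char.classInner_sub_right, hgram, if_neg (Ne.symm hj),
        if_neg hi, if_true]
      split_ifs <;> ring)
  obtain ⟨δ, hδ, rfl⟩ : ∃ δ : ℤ, (δ = 1 ∨ δ = -1) ∧ ε = (δ : ℂ) := by
    rcases hε with rfl | rfl
    · exact ⟨1, Or.inl rfl, by norm_num⟩
    · exact ⟨-1, Or.inr rfl, by norm_num⟩
  have hδ2 : δ * δ = 1 := by rcases hδ with rfl | rfl <;> norm_num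
  choose n hn using fun (χ : IrrCharacter G) (i : Fin r) =>
    Char.isGeneralizedCharacter_classInner_int (lift_gam_generalized h (rep i)) χ
  let η : Fin r → IrrCharacter G := fun i => ⟨μ i, hμ i⟩
  have hηinj : Function.Injective η := fun i j e => hμinj (congrArg Subtype.val e)
  have hdiff : ∀ χ i, n χ i₀ - n χ i =
      δ * ((if η i = χ then 1 else 0) - if η i₀ = χ then 1 else 0) := by
    intro χ i
    have e : classInner (lift P (gam (rep i₀)) - lift P (gam (rep i))) (χ : G → ℂ) =
        classInner ((δ : ℂ) • (μ i - μ i₀)) (χ : G → ℂ) := by rw [← hτ i]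
    rw [Char.classInner_sub_left, hn, hn, Char.classInner_smul_left, Char.classInner_sub_left,
      show μ i = ((η i : IrrCharacter G) : G → ℂ) from rfl,
      show μ i₀ = ((η i₀ : IrrCharacter G) : G → ℂ) from rfl,
      Char.classInner_irrCharacter, Char.classInner_irrCharacter] at e
    apply Int.cast_injective (α := ℂ)
    push_cast
    exact e
  have hn0 : ∀ χ, χ ∉ principalBlock M G → ∀ i, n χ i = 0 := fun χ hχ i => by
    have := classInner_lift_eq_zero hM h (gam_fused h (rep i)) (gam_one _) hχ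
    rw [hn] at this
    exact_mod_cast this
  let D : Fin r → ℤ := fun k => n (η k) i₀ + δ * (if i₀ = k then 1 else 0)
  have hnY : ∀ k i, n (η k) i = D k - δ * (if i = k then 1 else 0) := by
    intro k i
    have e := hdiff (η k) i
    simp only [hηinj.eq_iff] at e
    simp only [D]
    rw [mul_sub] at e
    linarith
  have hother : ∀ k : Fin r, ∃ j, j ≠ k := fun k => by
    by_cases hk : k = i₀
    · exact ⟨i₁, hk ▸ h01.symm⟩
    · exact ⟨i₀, Ne.symm hk⟩
  have hηB : ∀ k, η k ∈ principalBlock M G := by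
    intro k
    by_contra hk
    obtain ⟨j, hj⟩ := hother k
    have e1 := hnY k k
    have e2 := hnY k j
    rw [hn0 _ hk, if_pos rfl] at e1
    rw [hn0 _ hk, if_neg hj] at e2
    rcases hδ with rfl | rfl <;> omega
  have htriv : ∀ i, n (Char.trivialIrr G) i = 1 := fun i => by
    have e := (hn (Char.trivialIrr G) i).symm.trans (classInner_gam_trivial h (hne i))
    exact_mod_cast e
  have hηt : ∀ k, η k ≠ Char.trivialIrr G := by
    intro k hk
    obtain ⟨j, hj⟩ := hother k
    have e1 := hnY k k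
    have e2 := hnY k j
    rw [hk, htriv, if_pos rfl] at e1
    rw [hk, htriv, if_neg hj] at e2
    rcases hδ with rfl | rfl <;> linarith
  set Xf : Finset (IrrCharacter G) :=
    Finset.univ.filter (fun χ => χ ∈ principalBlock M G ∧ ∀ k, η k ≠ χ) with hXf
  have hnX : ∀ χ, (∀ k, η k ≠ χ) → ∀ i, n χ i = n χ i₀ := by
    intro χ hne' i
    have e := hdiff χ i
    rw [if_neg (hne' i), if_neg (hne' i₀), sub_self, mul_zero] at e
    linarith
  have hnorm : ∀ i, ∑ χ ∈ Xf, n χ i₀ ^ 2 + ∑ k, D k ^ 2 - 2 * δ * D i + 1 =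
      (indexM P : ℤ) + 1 := by
    intro i
    have e := hgram i i
    rw [if_pos rfl, Char.classInner_eq_sum_mul_conj
      (Char.isGeneralizedCharacter_isClassFunction (lift_gam_generalized h (rep i)))] at e
    simp only [hn, map_intCast] at e
    have e' : ∑ χ : IrrCharacter G, n χ i * n χ i = (indexM P : ℤ) + 1 := by
      apply Int.cast_injective (α := ℂ)
      push_cast
      exact e
    rw [← Finset.sum_filter_add_sum_filter_not Finset.univ (fun χ => ∀ k, η k ≠ χ)] at e'
    have e1 : ∑ χ ∈ Finset.univ.filter (fun χ => ∀ k, η k ≠ χ), n χ i * n χ i =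
        ∑ χ ∈ Xf, n χ i₀ ^ 2 := by
      refine (Finset.sum_subset ?_ ?_).symm.trans (Finset.sum_congr rfl fun χ hχ => ?_)
      · intro χ hχ
        exact Finset.mem_filter.2 ⟨Finset.mem_univ _, (Finset.mem_filter.1 hχ).2.2⟩
      · intro χ hχ hX
        have hB' : χ ∉ principalBlock M G := fun hb => hX (Finset.mem_filter.2
          ⟨Finset.mem_univ _, hb, (Finset.mem_filter.1 hχ).2⟩)
        rw [hn0 χ hB', mul_zero]
      · rw [hnX χ (Finset.mem_filter.1 hχ).2.2, sq]
    have e2 : ∑ χ ∈ Finset.univ.filter (fun χ => ¬ ∀ k, η k ≠ χ), n χ i * n χ i =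
        ∑ k, D k ^ 2 - 2 * δ * D i + 1 := by
      rw [show Finset.univ.filter (fun χ => ¬ ∀ k, η k ≠ χ) = Finset.univ.image η by ext χ; simp,
        Finset.sum_image hηinj.injOn]
      have e4 : ∀ k, n (η k) i * n (η k) i =
          D k ^ 2 - (if i = k then 2 * δ * D k - 1 else 0) := fun k => by
        rw [hnY]
        split_ifs
        · linear_combination hδ2
        · ring
      simp only [e4, Finset.sum_sub_distrib, Finset.sum_ite_eq, Finset.mem_univ, if_true]
      ring
    linarith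
  have hD : ∀ k, D k = D i₀ := fun k => by
    have h1 := hnorm k
    have h2 := hnorm i₀
    rcases hδ with rfl | rfl <;> linarith
  refine ⟨δ, D i₀, η, fun χ => n χ i₀, hδ, hηinj, hηB, htriv i₀, hηt, ?_, ?_, ?_, ?_⟩
  · intro k i
    rw [hn, hnY, hD]
  · intro χ hχ i
    rw [hn, hnX χ hχ]
  · intro g hg i j
    have e : ∀ i, μ i g = μ i₀ g := fun i => by
      have e := congrFun (hτ i) g
      simp only [Pi.sub_apply, hLone g hg, sub_self, Pi.smul_apply, smul_eq_mul] at e
      exact sub_eq_zero.1 ((mul_eq_zero.1 e.symm).resolve_left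
        (Int.cast_ne_zero.2 (by rcases hδ with rfl | rfl <;> norm_num)))
    exact (e i).trans (e j).symm
  · have h1 := hnorm i₀
    simp only [hD, Finset.sum_const, Finset.card_univ, Fintype.card_fin, nsmul_eq_mul] at h1
    linear_combination h1 + hδ2

end Cfsg.Agent.BlkChar.FrobExceptional
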