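import Cfsg.Agent.BlkChar.SectionLift
import Cfsg.Agent.BlkChar.FreeOrbitSums
import Cfsg.Agent.Brauer.SectionColumns
import Cfsg.Agent.Brauer.Sections
import Cfsg.Agent.BlkChar.RegCriterion

/-!
# The principal block on the sections of an abelian Sylow subgroup with free normaliser action
-/

set_option autoImplicit false
set_option linter.style.haveILetI false
set_option linter.unusedSectionVars false

namespace Cfsg.Agent.BlkChar.FrobSections

open Cfsg
open Cfsg.Agent.BlkChar.SectionLift
open scoped ComplexConjugate Classical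

universe u

variable {G : Type u} [Group G] [Fintype G] {p : ℕ} [hp : Fact p.Prime] {M : Ideal AlgInt}

/-- The hypothesis: an abelian Sylow subgroup whose normaliser acts freely. -/
structure Hyp (P : Sylow p G) : Prop where
  comm : IsMulCommutative (P : Subgroup G)
  frob : ∀ y : G, y ∈ (P : Subgroup G) → y ≠ 1 →
    Subgroup.centralizer ({y} : Set G) ⊓ Subgroup.normalizer ((P : Subgroup G) : Set G) =
      Subgroup.centralizer ((P : Subgroup G) : Set G)

variable (P : Sylow p G)

/-- The automorphisms of the Sylow subgroup induced by its normaliser. -/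
noncomputable def autGroup : Subgroup (MulAut (P : Subgroup G)) :=
  (P : Subgroup G).normalizerMonoidHom.range

/-- The order of the induced automorphism group. -/
noncomputable def indexM : ℕ :=
  (Subgroup.centralizer ((P : Subgroup G) : Set G)).relIndex
    (Subgroup.normalizer ((P : Subgroup G) : Set G))

theorem card_autGroup : Nat.card (autGroup P) = indexM P := by
  rw [autGroup, ← Subgroup.index_ker, Subgroup.normalizerMonoidHom_ker]
  rfl

theorem mem_autGroup {a : MulAut (P : Subgroup G)} :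
    a ∈ autGroup P ↔ ∃ n ∈ Subgroup.normalizer ((P : Subgroup G) : Set G),
      ∀ w : (P : Subgroup G), (a w : G) = n * w * n⁻¹ := by
  constructor
  · rintro ⟨⟨n, hn⟩, rfl⟩
    exact ⟨n, hn, fun w => rfl⟩
  · rintro ⟨n, hn, h⟩
    exact ⟨⟨n, hn⟩, MulEquiv.ext fun w => Subtype.ext (h w).symm⟩

variable {P}

theorem free (h : Hyp P) : ∀ a ∈ autGroup P, a ≠ 1 → ∀ y : (P : Subgroup G), a y = y → y = 1 := by
  intro a ha hne y hy
  by_contra hy1
  obtain ⟨n, hn, hna⟩ := (mem_autGroup P).1 ha
  have hy1' : (y : G) ≠ 1 := fun e => hy1 (Subtype.ext e)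
  have hmem : n ∈ Subgroup.centralizer ((P : Subgroup G) : Set G) := by
    rw [← h.frob y y.2 hy1']
    refine ⟨Subgroup.mem_centralizer_singleton_iff.2 ?_, hn⟩
    have e := hna y
    rw [hy] at e
    exact eq_mul_inv_iff_mul_eq.1 e |>.symm
  refine hne (MulEquiv.ext fun w => Subtype.ext ?_)
  rw [hna, MulAut.one_apply, ← Subgroup.mem_centralizer_iff.1 hmem w w.2, mul_inv_cancel_right]

theorem isConj_iff_aut (h : Hyp P) {y y' : (P : Subgroup G)} :
    IsConj (y : G) (y' : G) ↔ ∃ a ∈ autGroup P, a y = y' := by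
  haveI := h.comm
  constructor
  · intro hc
    obtain ⟨g, hg⟩ := isConj_iff.1 hc
    obtain ⟨n, hn, hn'⟩ := P.conj_eq_normalizer_conj_of_mem (y : G) g⁻¹ y.2
      (by rw [inv_inv, hg]; exact y'.2)
    rw [inv_inv, hg] at hn'
    refine ⟨(P : Subgroup G).normalizerMonoidHom ⟨n⁻¹, inv_mem hn⟩, ⟨_, rfl⟩, Subtype.ext ?_⟩
    rw [hn']
    show n⁻¹ * (y : G) * n⁻¹⁻¹ = _
    rw [inv_inv]
  · rintro ⟨a, ha, rfl⟩
    obtain ⟨n, -, hna⟩ := (mem_autGroup P).1 ha
    exact isConj_iff.2 ⟨n, (hna y).symm⟩

theorem fused_iff (h : Hyp P) {f : ↥(P : Subgroup G) → ℂ} :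
    Fused P f ↔ ∀ a ∈ autGroup P, ∀ y, f (a y) = f y := by
  constructor
  · intro hf a ha y
    exact (hf _ _ ((isConj_iff_aut h).2 ⟨a, ha, rfl⟩)).symm
  · intro hf y y' hc
    obtain ⟨a, ha, rfl⟩ := (isConj_iff_aut h).1 hc
    exact (hf a ha y).symm

theorem card_conj (h : Hyp P) {y : (P : Subgroup G)} (hy : y ≠ 1) :
    Nat.card {y' : (P : Subgroup G) // IsConj (y : G) (y' : G)} = indexM P := by
  rw [← card_autGroup]
  refine (Nat.card_congr (Equiv.ofBijective
    (fun a : autGroup P => (⟨(a : MulAut (P : Subgroup G)) y,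
      (isConj_iff_aut h).2 ⟨a, a.2, rfl⟩⟩ : {y' : (P : Subgroup G) // IsConj (y : G) (y' : G)}))
    ⟨fun a b e => ?_, fun y' => ?_⟩)).symm
  · have e' : (a : MulAut (P : Subgroup G)) y = (b : MulAut (P : Subgroup G)) y :=
      congrArg Subtype.val e
    by_contra hne
    refine hy (free h _ (mul_mem (inv_mem b.2) a.2) (fun h1 => hne (Subtype.ext
      (inv_mul_eq_one.1 h1).symm)) y ?_)
    rw [MulAut.mul_apply, e']
    exact (b : MulAut (P : Subgroup G)).symm_apply_apply y
  · obtain ⟨a, ha, e⟩ := (isConj_iff_aut h).1 y'.2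
    exact ⟨⟨a, ha⟩, Subtype.ext e⟩

/-- The centraliser of a nontrivial element of `P` has a normal `p`-complement. -/
theorem exists_core (h : Hyp P) {y : G} (hy : y ∈ (P : Subgroup G)) (hy1 : y ≠ 1) :
    ∃ K : Subgroup (Subgroup.centralizer ({y} : Set G)), K.Normal ∧ ¬ p ∣ Nat.card K ∧
      K.index = Nat.card (P : Subgroup G) ∧
      regC p y = Finset.univ.filter (fun x : G =>
        x ∈ K.map (Subgroup.centralizer ({y} : Set G)).subtype) := by
  set C := Subgroup.centralizer ({y} : Set G) with hC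
  have hPC : (P : Subgroup G) ≤ C := by
    haveI := h.comm
    intro x hx
    rw [hC, Subgroup.mem_centralizer_singleton_iff]
    exact congrArg Subtype.val
      (mul_comm' (⟨x, hx⟩ : (P : Subgroup G)) ⟨y, hy⟩)
  let PC : Sylow p C := P.subtype hPC
  have hle : Subgroup.normalizer ((PC : Subgroup C) : Set C) ≤
      Subgroup.centralizer ((PC : Subgroup C) : Set C) := by
    intro c hc
    have hcN : (c : G) ∈ Subgroup.normalizer ((P : Subgroup G) : Set G) := by
      rw [Subgroup.mem_normalizer_iff]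
      intro w
      constructor
      · intro hw
        exact (Subgroup.mem_normalizer_iff.1 hc ⟨w, hPC hw⟩).1 hw
      · intro hw
        have hwC : w ∈ C := by
          have h1 := C.mul_mem (C.mul_mem (C.inv_mem c.2) (hPC hw)) c.2
          simpa [mul_assoc] using h1
        exact (Subgroup.mem_normalizer_iff.1 hc ⟨w, hwC⟩).2 hw
    have hmem : (c : G) ∈ Subgroup.centralizer ((P : Subgroup G) : Set G) := by
      rw [← h.frob y hy hy1]
      exact ⟨c.2, hcN⟩
    rw [Subgroup.mem_centralizer_iff]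
    intro w hw
    exact Subtype.ext (Subgroup.mem_centralizer_iff.1 hmem w hw)
  have hcompl := MonoidHom.ker_transferSylow_isComplement' PC hle
  set K := (MonoidHom.transferSylow PC hle).ker with hK
  have hcop : ¬ p ∣ Nat.card K := by
    rw [← hcompl.index_eq_card]
    exact PC.not_dvd_index
  have hidx : K.index = Nat.card (P : Subgroup G) := by
    rw [hcompl.symm.index_eq_card]
    exact Nat.card_congr (Subgroup.subgroupOfEquivOfLe hPC).toEquiv
  refine ⟨K, inferInstance, hcop, hidx, ?_⟩
  ext x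
  simp only [regC, Finset.mem_filter, Finset.mem_univ, true_and, Subgroup.mem_map]
  constructor
  · rintro ⟨hcx, hrx⟩
    have hxC : x ∈ C := by rw [hC, Subgroup.mem_centralizer_singleton_iff]; exact hcx.symm
    refine ⟨⟨x, hxC⟩, ?_, rfl⟩
    rw [← QuotientGroup.eq_one_iff, ← orderOf_eq_one_iff]
    obtain ⟨k, hk⟩ := IsPGroup.iff_card.1 P.2
    have h1 : orderOf ((⟨x, hxC⟩ : C) : C ⧸ K) ∣ p ^ k := by
      rw [← hk, ← hidx, Subgroup.index_eq_card]
      exact orderOf_dvd_natCard _
    have h2 := orderOf_map_dvd (QuotientGroup.mk' K) (⟨x, hxC⟩ : C)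
    rw [Subgroup.orderOf_mk] at h2
    exact Nat.eq_one_of_dvd_coprimes (((hp.out.coprime_iff_not_dvd).2 hrx).pow_left k) h1 h2
  · rintro ⟨c, hc, rfl⟩
    refine ⟨(Subgroup.mem_centralizer_singleton_iff.1 c.2).symm, ?_⟩
    intro hd
    apply hcop
    have h2 : orderOf (c : G) = orderOf (⟨c, hc⟩ : K) := by
      rw [Subgroup.orderOf_mk, Subgroup.orderOf_coe]
    exact (hd.trans (dvd_of_eq h2)).trans (orderOf_dvd_natCard _)

theorem card_centralizer (h : Hyp P) {y : G} (hy : y ∈ (P : Subgroup G)) (hy1 : y ≠ 1) :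
    Nat.card (Subgroup.centralizer ({y} : Set G)) =
      Nat.card (P : Subgroup G) * (regC p y).card := by
  obtain ⟨K, -, -, hidx, hreg⟩ := exists_core h hy hy1
  rw [← K.card_mul_index, hidx, mul_comm, hreg, ← Fintype.card_subtype, ← Nat.card_eq_fintype_card]
  congr 1
  exact Nat.card_congr (K.equivMapOfInjective _ (Subgroup.subtype_injective _)).toEquiv

theorem principal_const (hM : IsPModular p M) (h : Hyp P) {χ : IrrCharacter G}
    (hχ : χ ∈ principalBlock M G) {y : G} (hy : y ∈ (P : Subgroup G)) (hy1 : y ≠ 1) {x : G}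
    (hx : x ∈ regC p y) : (χ : G → ℂ) (y * x) = (χ : G → ℂ) y := by
  obtain ⟨K, hKn, hcop, -, hreg⟩ := exists_core h hy hy1
  obtain ⟨k, hk⟩ := Element.orderOf_eq_pow_of_mem_isPGroup P.2 hy
  refine Brauer.principalBlock_apply_mul hM hk
    (K.map (Subgroup.centralizer ({y} : Set G)).subtype) (Subgroup.map_subtype_le _) ?_ ?_ hχ ?_
  · rintro c hc _ ⟨v, hv, rfl⟩
    exact ⟨⟨c, hc⟩ * v * (⟨c, hc⟩ : Subgroup.centralizer ({y} : Set G))⁻¹, hKn.conj_mem v hv _, rfl⟩
  · rwa [Subgroup.card_map_of_injective (Subgroup.subtype_injective _)]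
  · rw [hreg] at hx
    exact (Finset.mem_filter.1 hx).2

/-- A function is constant on the sections of the nontrivial elements of `P`. -/
def SecConst (P : Sylow p G) (F : G → ℂ) : Prop :=
  ∀ y : (P : Subgroup G), y ≠ 1 → ∀ x ∈ regC p (y : G), F ((y : G) * x) = F y

theorem principal_secConst (hM : IsPModular p M) (h : Hyp P) {χ : IrrCharacter G}
    (hχ : χ ∈ principalBlock M G) : SecConst P (χ : G → ℂ) := fun y hy x hx =>
  principal_const hM h hχ y.2 (fun e => hy (Subtype.ext e)) hx

theorem lift_coe {f : ↥(P : Subgroup G) → ℂ} (hf : Fused P f) (y : (P : Subgroup G)) :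
    lift P f (y : G) = f y := by
  refine lift_eq hf ?_
  obtain ⟨k, hk⟩ := Element.orderOf_eq_pow_of_mem_isPGroup P.2 y.2
  rw [(Element.pPart_eq_self hp.out hk).1]

theorem lift_secConst {f : ↥(P : Subgroup G) → ℂ} (hf : Fused P f) : SecConst P (lift P f) := by
  intro y _ x hx
  rw [lift_coe hf y]
  refine lift_eq hf ?_
  obtain ⟨k, hk⟩ := Element.orderOf_eq_pow_of_mem_isPGroup P.2 y.2
  obtain ⟨hc, hr⟩ := (Finset.mem_filter.1 hx).2
  rw [← (Element.eq_pPart hp.out hc rfl hk ((hp.out.coprime_iff_not_dvd).2 hr).symm).1]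

theorem indexM_ne_zero : indexM P ≠ 0 := Subgroup.index_ne_zero_of_finite

variable [Fintype (P : Subgroup G)]

/-- Inner products with a lift. -/
theorem classInner_lift (h : Hyp P) {α : ↥(P : Subgroup G) → ℂ} (hα : Fused P α) (hα1 : α 1 = 0)
    {F : G → ℂ} (hF : IsClassFunction G F) (hFc : SecConst P F) :
    classInner (lift P α) F =
      ((indexM P : ℂ) * Nat.card (P : Subgroup G))⁻¹ *
        ∑ y : (P : Subgroup G), α y * conj (F y) := by
  have hm : (indexM P : ℂ) ≠ 0 := Nat.cast_ne_zero.2 indexM_ne_zero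
  have hG : (Nat.card G : ℂ) ≠ 0 := Nat.cast_ne_zero.2 Nat.card_pos.ne'
  have hq : (Nat.card (P : Subgroup G) : ℂ) ≠ 0 := Nat.cast_ne_zero.2 Nat.card_pos.ne'
  have h1 := sum_lift_mul hα hα1 (F := fun z => conj (F z))
    (fun a b => by simp only [hF a b]) (indexM P) (fun y hy => card_conj h hy)
  have h2 : ∀ y : (P : Subgroup G),
      α y / (Nat.card (Subgroup.centralizer ({(y : G)} : Set G)) : ℂ) *
        ∑ x ∈ regC p (y : G), conj (F (y * x)) =
      (Nat.card (P : Subgroup G) : ℂ)⁻¹ * (α y * conj (F y)) := by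
    intro y
    by_cases hy : y = 1
    · simp [hy, hα1]
    have hy' : (y : G) ≠ 1 := fun e => hy (Subtype.ext e)
    have hne : ((regC p (y : G)).card : ℂ) ≠ 0 := by
      refine Nat.cast_ne_zero.2 (Finset.card_ne_zero.2 ⟨1, ?_⟩)
      exact Finset.mem_filter.2 ⟨Finset.mem_univ _, Commute.one_right _,
        by simpa using hp.out.ne_one⟩
    rw [Finset.sum_congr rfl fun x hx => by rw [hFc y hy x hx], Finset.sum_const, nsmul_eq_mul,
      card_centralizer h y.2 hy']
    push_cast
    field_simp
  simp only [h2, ← Finset.mul_sum] at h1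
  rw [classInner]
  field_simp
  field_simp at h1
  linear_combination h1

/-- Column products of the principal block at two elements of `P`. -/
theorem column (hM : IsPModular p M) (h : Hyp P) {y : (P : Subgroup G)} (hy : y ≠ 1)
    (y' : (P : Subgroup G)) :
    ∑ χ ∈ Finset.univ.filter (· ∈ principalBlock M G),
        (χ : G → ℂ) y * conj ((χ : G → ℂ) y') =
      if IsConj (y : G) (y' : G) then (Nat.card (P : Subgroup G) : ℂ) else 0 := by
  haveI : M.IsPrime := hM.2.1.isPrime
  obtain ⟨k, hk⟩ := Element.orderOf_eq_pow_of_mem_isPGroup P.2 y.2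
  set C := Subgroup.centralizer ({(y : G)} : Set G) with hC
  have hreg1 : ¬ p ∣ orderOf (1 : C) := by simpa using hp.out.ne_one
  have hfin : ∀ f : IrrCharacter G → ℂ,
      ∑ χ ∈ Finset.univ.filter (· ∈ principalBlock M G), f χ =
        ∑ᶠ χ ∈ principalBlock M G, f χ := fun f => by
    rw [finsum_mem_eq_toFinset_sum]
    exact Finset.sum_congr (by ext; simp) fun _ _ => rfl
  rw [hfin]
  split_ifs with hc
  · have hcol := Brauer.principal_column_section hM hk C rfl 1 1 hreg1 hreg1
    simp only [Subgroup.coe_one, mul_one] at hcol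
    obtain ⟨g, hg⟩ := isConj_iff.1 hc
    rw [finsum_mem_congr rfl (g := fun χ : IrrCharacter G =>
      (χ : G → ℂ) y * conj ((χ : G → ℂ) y)) (fun χ _ => by
        rw [← hg, Char.irr_isClassFunction χ.2]), hcol]
    obtain ⟨K, hKn, hcop, hidx, -⟩ := exists_core h y.2 (fun e => hy (Subtype.ext e))
    haveI := hKn
    obtain ⟨j, hj⟩ := IsPGroup.iff_card.1 P.2
    rw [hj] at hidx
    have hsq := Brauer.sum_sq_principalBlock_of_complement hM K hcop hidx K.one_mem K.one_mem
    rw [hsq, hj]
  · obtain ⟨k', hk'⟩ := Element.orderOf_eq_pow_of_mem_isPGroup P.2 y'.2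
    have h0 := Brauer.principal_column_eq_zero hM hk C rfl (g := (y' : G)) 1 hreg1
      (by rw [(Element.pPart_eq_self hp.out hk').1]; exact hc)
    simpa using h0

/-- Lifts live in the principal block. -/
theorem classInner_lift_eq_zero (hM : IsPModular p M) (h : Hyp P) {α : ↥(P : Subgroup G) → ℂ}
    (hα : Fused P α) (hα1 : α 1 = 0) {χ : IrrCharacter G} (hχ : χ ∉ principalBlock M G) :
    classInner (lift P α) (χ : G → ℂ) = 0 := by
  set c : ℂ := ((indexM P : ℂ) * Nat.card (P : Subgroup G))⁻¹ with hc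
  have hm : (indexM P : ℂ) ≠ 0 := Nat.cast_ne_zero.2 indexM_ne_zero
  have hq : (Nat.card (P : Subgroup G) : ℂ) ≠ 0 := Nat.cast_ne_zero.2 Nat.card_pos.ne'
  have hn : classInner (lift P α) (lift P α) = c * ∑ y : (P : Subgroup G), α y * conj (α y) := by
    rw [classInner_lift h hα hα1 (lift_isClassFunction hα) (lift_secConst hα)]
    simp only [lift_coe hα, hc]
  have hin : ∑ ψ ∈ Finset.univ.filter (· ∈ principalBlock M G),
      classInner (lift P α) (ψ : G → ℂ) * conj (classInner (lift P α) (ψ : G → ℂ)) =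
      classInner (lift P α) (lift P α) := by
    rw [Finset.sum_congr rfl fun ψ hψ => by
      rw [classInner_lift h hα hα1 (Char.irr_isClassFunction ψ.2)
        (principal_secConst hM h (Finset.mem_filter.1 hψ).2)]]
    simp only [← hc, map_mul, map_sum, Complex.conj_conj, Finset.mul_sum, Finset.sum_mul]
    rw [Finset.sum_comm, hn, Finset.mul_sum]
    refine Finset.sum_congr rfl fun y _ => ?_
    rw [Finset.sum_comm]
    by_cases hy : y = 1
    · simp [hy, hα1]
    have e : ∀ y' : (P : Subgroup G), ∑ ψ ∈ Finset.univ.filter (· ∈ principalBlock M G),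
        c * (α y' * conj ((ψ : G → ℂ) y')) * (conj c * (conj (α y) * (ψ : G → ℂ) y)) =
        c * conj c * conj (α y) * α y' *
          if IsConj (y : G) (y' : G) then (Nat.card (P : Subgroup G) : ℂ) else 0 := by
      intro y'
      rw [← column hM h hy y', Finset.mul_sum]
      exact Finset.sum_congr rfl fun ψ _ => by ring
    rw [Finset.sum_congr rfl fun y' _ => e y']
    simp only [mul_ite, mul_zero]
    rw [← Finset.sum_filter, Finset.sum_congr rfl (fun y' hy' => by
      rw [← hα y y' (Finset.mem_filter.1 hy').2] :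
      ∀ y' ∈ Finset.univ.filter (fun y' : (P : Subgroup G) => IsConj (y : G) (y' : G)),
        c * conj c * conj (α y) * α y' * (Nat.card (P : Subgroup G) : ℂ) =
        c * conj c * conj (α y) * α y * (Nat.card (P : Subgroup G) : ℂ)), Finset.sum_const,
      nsmul_eq_mul, ← Fintype.card_subtype, ← Nat.card_eq_fintype_card, card_conj h hy]
    have hcr : conj c = c := by rw [hc]; simp
    rw [hcr, hc]
    field_simp
  have hall := Char.classInner_eq_sum_mul_conj (b := lift P α) (lift_isClassFunction hα)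
  rw [← Finset.sum_filter_add_sum_filter_not Finset.univ (· ∈ principalBlock M G), hin,
    left_eq_add] at hall
  have hz : (∑ ψ ∈ Finset.univ.filter (fun ψ : IrrCharacter G => ψ ∉ principalBlock M G),
      Complex.normSq (classInner (lift P α) (ψ : G → ℂ))) = 0 := by
    have e : ((∑ ψ ∈ Finset.univ.filter (fun ψ : IrrCharacter G => ψ ∉ principalBlock M G),
        Complex.normSq (classInner (lift P α) (ψ : G → ℂ)) : ℝ) : ℂ) = 0 := by
      rw [← hall]
      push_cast
      exact Finset.sum_congr rfl fun ψ _ => (Complex.mul_conj _).symm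
    exact_mod_cast e
  rw [Finset.sum_eq_zero_iff_of_nonneg fun ψ _ => Complex.normSq_nonneg _] at hz
  exact Complex.normSq_eq_zero.1 (hz χ (Finset.mem_filter.2 ⟨Finset.mem_univ _, hχ⟩))

/-- A nonprincipal member of the principal block does not vanish on all the nontrivial elements
of `P`. -/
theorem exists_apply_ne_zero (hM : IsPModular p M) (h : Hyp P) {χ : IrrCharacter G}
    (hχ : χ ∈ principalBlock M G) (h1 : (χ : G → ℂ) ≠ fun _ => 1) :
    ∃ y : (P : Subgroup G), y ≠ 1 ∧ (χ : G → ℂ) y ≠ 0 := by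
  by_contra hcon
  push Not at hcon
  have hvan : ∀ z : G, p ∣ orderOf z → (χ : G → ℂ) z = 0 := by
    intro z hz
    obtain ⟨y, hy⟩ := exists_conj_pPart P z
    obtain ⟨g, hg⟩ := isConj_iff.1 hy
    have e := Element.pPart_conj hp.out g z
    rw [hg] at e
    obtain ⟨k, hk⟩ := Element.orderOf_eq_pow_of_mem_isPGroup P.2 y.2
    have hy1 : y ≠ 1 := by
      intro e1
      rw [e1, Subgroup.coe_one, conj_eq_one_iff] at hg
      have hcop := Element.coprime_orderOf_pComplPart hp.out z
      have hzz : Element.pComplPart p z = z := by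
        have := Element.pPart_mul_pComplPart p z
        rwa [hg, one_mul] at this
      rw [hzz] at hcop
      exact (hp.out.coprime_iff_not_dvd).1 hcop.symm hz
    have hx : g * Element.pComplPart p z * g⁻¹ ∈ regC p (y : G) := by
      refine Finset.mem_filter.2 ⟨Finset.mem_univ _, ?_, ?_⟩
      · rw [← e.2, ← e.1]
        exact Element.commute_pPart_pComplPart p _
      · rw [← e.2]
        exact (hp.out.coprime_iff_not_dvd).1 (Element.coprime_orderOf_pComplPart hp.out _).symm
    calc (χ : G → ℂ) z = (χ : G → ℂ) (g * z * g⁻¹) := (Char.irr_isClassFunction χ.2 z g).symm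
      _ = (χ : G → ℂ) ((y : G) * (g * Element.pComplPart p z * g⁻¹)) := by
          congr 1
          rw [← hg]
          conv_lhs => rw [← Element.pPart_mul_pComplPart p z]
          group
      _ = 0 := by rw [principal_secConst hM h hχ y hy1 _ hx]; exact hcon y hy1
  have hsum := Char.irr_sum_eq_zero χ.2 h1
  rw [← Finset.sum_filter_add_sum_filter_not Finset.univ (fun z : G => p ∣ orderOf z),
    Finset.sum_eq_zero (fun z hz => hvan z (Finset.mem_filter.1 hz).2), zero_add] at hsum
  refine (mem_principalBlock_iff_regTotal hM χ).1 hχ ?_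
  rw [regTotal_eq, hsum, zero_div]
  haveI : M.IsPrime := hM.2.1.isPrime
  exact Block.memLocalIdeal_zero

end Cfsg.Agent.BlkChar.FrobSections
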