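import Cfsg.Agent.BlkChar.Weil
import Cfsg.Agent.Char.PermChar
import Mathlib

/-!
# The square root of `c ↦ |[M, c]|` for an orthogonal coprime module

Here the Gauss sums on the commutator subspaces do the job.
-/

set_option autoImplicit false
set_option linter.style.haveILetI false
set_option linter.unusedSectionVars false

open scoped ComplexConjugate Classical
open Finset Cfsg.Agent.Delta.Weil

namespace Cfsg.Agent.Delta.Gauss

universe u v

variable {p : ℕ} [Fact p.Prime] {M : Type v} [AddCommGroup M] [Module (ZMod p) M] [Fintype M]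
  {H : Type u} [Group H] [Fintype H] {ρ : Representation (ZMod p) H M}
  {S : LinearMap.BilinForm (ZMod p) M} {z : ℂ}

theorem ad_ne_one (hz : IsPrimitiveRoot z p) {t : ZMod p} (ht : t ≠ 0) : ad z t ≠ 1 := fun h =>
  ht (ZMod.val_eq_zero t |>.mp
    (Nat.eq_zero_of_dvd_of_lt ((hz.pow_eq_one_iff_dvd _).mp h) (ZMod.val_lt t)))

theorem conj_ad (hz : IsPrimitiveRoot z p) (t : ZMod p) : conj (ad z t) = ad z (-t) := by
  have h1 : ad z t * ad z (-t) = 1 := by rw [← ad_add hz.pow_eq_one, add_neg_cancel, ad_zero]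
  have hn : ‖ad z t‖ = 1 :=
    Complex.norm_eq_one_of_pow_eq_one (ad_pow hz.pow_eq_one t) (Fact.out : p.Prime).ne_zero
  rw [← Complex.inv_eq_conj hn, ← eq_inv_of_mul_eq_one_right h1]

theorem ad_natCast_mul (hz : z ^ p = 1) (k : ℕ) (t : ZMod p) :
    ad z ((k : ZMod p) * t) = ad z t ^ k := by
  induction k with
  | zero => simp [ad_zero]
  | succ k ih => rw [Nat.cast_succ, add_mul, one_mul, ad_add hz, ih, pow_succ]

/-- The Gauss sum of `u ↦ q · S(u, u)` on a subspace. -/
noncomputable def gs (z : ℂ) (S : LinearMap.BilinForm (ZMod p) M) (W : Submodule (ZMod p) M)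
    (q : ZMod p) : ℂ :=
  ∑ u : W, ad z (q * S (u : M) u)

theorem isIntegral_gs (hz : IsPrimitiveRoot z p) (W : Submodule (ZMod p) M) (q : ZMod p) :
    IsIntegral ℤ (gs z S W q) :=
  IsIntegral.sum _ fun _ _ => ad_isIntegral hz.pow_eq_one _

theorem conj_gs (hz : IsPrimitiveRoot z p) (W : Submodule (ZMod p) M) (q : ZMod p) :
    conj (gs z S W q) = gs z S W (-q) := by
  simp only [gs, map_sum, conj_ad hz, neg_mul]

theorem gs_mul_conj (hz : IsPrimitiveRoot z p) (hp2 : p ≠ 2) (hsym : ∀ x y, S x y = S y x)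
    (W : Submodule (ZMod p) M) (hW : ∀ w ∈ W, (∀ y ∈ W, S w y = 0) → w = 0) {q : ZMod p}
    (hq : q ≠ 0) : gs z S W q * conj (gs z S W q) = (Nat.card W : ℂ) := by
  have h2 : (2 : ZMod p) ≠ 0 := by
    intro h
    have : ((2 : ℕ) : ZMod p) = 0 := h
    exact hp2 ((Nat.prime_dvd_prime_iff_eq Fact.out Nat.prime_two).mp
      ((ZMod.natCast_eq_zero_iff _ _).mp this))
  have hz1 := hz.pow_eq_one
  rw [conj_gs hz, gs, gs, Finset.sum_mul_sum, Finset.sum_comm]
  have hstep : ∀ y : W, ∑ x : W, ad z (q * S (x : M) x) * ad z (-q * S (y : M) y) =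
      ∑ w : W, ad z (q * S (w : M) w) * ad z (2 * q * S (w : M) y) := fun y => by
    refine Fintype.sum_equiv (Equiv.subRight y) _ _ fun x => ?_
    rw [← ad_add hz1, ← ad_add hz1, Equiv.subRight_apply, Submodule.coe_sub]
    simp only [map_sub, LinearMap.sub_apply, hsym (y : M) x]
    congr 1; ring
  rw [Finset.sum_congr rfl fun y _ => hstep y, Finset.sum_comm]
  simp only [← Finset.mul_sum]
  rw [Finset.sum_eq_single 0]
  · simp [ad_zero]
  · intro w _ hw
    obtain ⟨y0, hy0⟩ : ∃ y : W, S (w : M) y ≠ 0 := by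
      by_contra hall
      simp only [not_exists, not_not] at hall
      exact hw (Subtype.ext (hW w w.2 fun y hy => hall ⟨y, hy⟩))
    have hσ : ∑ y : W, ad z (2 * q * S (w : M) y) =
        ad z (2 * q * S (w : M) y0) * ∑ y : W, ad z (2 * q * S (w : M) y) := by
      rw [Finset.mul_sum]
      refine (Fintype.sum_equiv (Equiv.addLeft y0) _ _ fun y => ?_).symm
      simp [ad_add hz1, mul_add]
    have hne : ad z (2 * q * S (w : M) y0) ≠ 1 := ad_ne_one hz (mul_ne_zero (mul_ne_zero h2 hq) hy0)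
    have h0 : ∑ y : W, ad z (2 * q * S (w : M) y) = 0 := by
      by_contra h
      exact hne ((mul_eq_right₀ h).mp hσ.symm)
    rw [h0, mul_zero]
  · exact fun h => absurd (Finset.mem_univ _) h

/-- Counting fixed points of a given value of the form. -/
theorem isCharacter_levelCount (hS : ∀ g : H, ∀ x y : M, S (ρ g x) (ρ g y) = S x y) (t : ZMod p) :
    IsCharacter H (fun c => (Nat.card {u : {x : M // S x x = t} // ρ c u.1 = u.1} : ℂ)) := by
  letI : MulAction H {x : M // S x x = t} :=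
    { smul := fun g u => ⟨ρ g u.1, (hS g u.1 u.1).trans u.2⟩
      one_smul := fun u => Subtype.ext (by show ρ 1 u.1 = u.1; simp)
      mul_smul := fun g h u => Subtype.ext
        (by show ρ (g * h) u.1 = ρ g (ρ h u.1); simp [map_mul, Module.End.mul_apply]) }
  convert Char.isCharacter_permChar (G := H) {x : M // S x x = t} using 1
  funext c
  simp only [Char.permChar]
  congr 1
  exact Nat.card_congr (Equiv.subtypeEquivRight fun u => by
    rw [MulAction.mem_fixedBy]
    exact ⟨fun h => Subtype.ext h, fun h => congrArg Subtype.val h⟩)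

theorem gs_fix_mem (hS : ∀ g : H, ∀ x y : M, S (ρ g x) (ρ g y) = S x y)
    (hz : IsPrimitiveRoot z p) (q : ZMod p) :
    (fun c => gs z S (fixSub ρ c) q) ∈ IntCF.intCF H := by
  have h : (fun c => gs z S (fixSub ρ c) q) = ∑ t : ZMod p, ad z (q * t) •
      (fun c => (Nat.card {u : {x : M // S x x = t} // ρ c u.1 = u.1} : ℂ)) := by
    funext c
    simp only [Finset.sum_apply, Pi.smul_apply, smul_eq_mul]
    rw [gs, ← Finset.sum_fiberwise (Finset.univ : Finset (fixSub ρ c)) (fun u => S (u : M) u)]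
    refine Finset.sum_congr rfl fun t _ => ?_
    rw [Finset.sum_congr rfl (g := fun _ => ad z (q * t)) (fun u hu => by
        rw [(Finset.mem_filter.mp hu).2]), Finset.sum_const, nsmul_eq_mul, mul_comm]
    congr 2
    rw [← Nat.card_eq_finsetCard]
    exact Nat.card_congr
      { toFun := fun u => ⟨⟨u.1.1, (Finset.mem_filter.mp u.2).2⟩, mem_fixSub.mp u.1.2⟩
        invFun := fun u => ⟨⟨u.1.1, mem_fixSub.mpr u.2⟩,
          Finset.mem_filter.mpr ⟨Finset.mem_univ _, u.1.2⟩⟩
        left_inv := fun _ => rfl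
        right_inv := fun _ => rfl }
  rw [h]
  exact Subring.sum_mem _ fun t _ =>
    IntCF.smul_mem (IntCF.of_isCharacter (isCharacter_levelCount hS t)) (ad_isIntegral hz.pow_eq_one _)

theorem exists_isDelta (hS : ∀ g : H, ∀ x y : M, S (ρ g x) (ρ g y) = S x y)
    (hsym : ∀ x y, S x y = S y x) (hnd : ∀ x, (∀ y, S x y = 0) → x = 0) (hp2 : p ≠ 2)
    (hpH : ¬ p ∣ Nat.card H) {Mi : Ideal AlgInt} (hM : IsPModular p Mi) (n : ℕ) [NeZero n]
    (hn : Nat.card H ∣ n) (hpn : p ∣ n) :
    ∃ δ : (ZMod n)ˣ → H → ℂ, IsDelta ρ Mi n δ := by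
  haveI := Block.isPrime_of_isPModular hM
  obtain ⟨z, hz⟩ : ∃ z : ℂ, IsPrimitiveRoot z p :=
    ⟨_, Complex.isPrimitiveRoot_exp p (Fact.out : p.Prime).ne_zero⟩
  have hz1 := hz.pow_eq_one
  have hdis : ∀ (c : H) (x : M), x ∈ fixSub ρ c → x ∈ comSub ρ c → x = 0 := fun c x hf hc =>
    hnd x fun y => by
      obtain ⟨t, ht, hk⟩ := exists_decomp hpH ρ c y
      have h1 : S x t = 0 := com_inner_fix ρ hS ht hc
      have h2 : S x (y - t) = 0 := inner_fix_com ρ hS hf hk
      rw [map_sub, h1, sub_zero] at h2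
      exact h2
  have hndF : ∀ c : H, ∀ w ∈ fixSub ρ c, (∀ y ∈ fixSub ρ c, S w y = 0) → w = 0 := fun c w hw h =>
    hdis c w hw (mem_comSub_of_orth hpH ρ hS hnd h)
  have hndC : ∀ c : H, ∀ w ∈ comSub ρ c, (∀ y ∈ comSub ρ c, S w y = 0) → w = 0 := fun c w hw h =>
    hnd w fun y => by
      obtain ⟨t, ht, hk⟩ := exists_decomp hpH ρ c y
      have h1 : S w t = 0 := com_inner_fix ρ hS ht hw
      have h2 := h _ hk
      rw [map_sub, h1, sub_zero] at h2
      exact h2
  have hsplit : ∀ (c : H) (q : ZMod p),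
      gs z S (comSub ρ c) q * gs z S (fixSub ρ c) q = ∑ u : M, ad z (q * S u u) := fun c q => by
    rw [gs, gs, Finset.sum_mul_sum, ← Fintype.sum_prod_type']
    refine Fintype.sum_bijective (fun kt : comSub ρ c × fixSub ρ c => (kt.1 : M) + kt.2)
      ⟨?_, ?_⟩ _ _ ?_
    · rintro ⟨⟨k, hk⟩, ⟨t, ht⟩⟩ ⟨⟨k', hk'⟩, ⟨t', ht'⟩⟩ h
      have h1 : k - k' = t' - t := sub_eq_sub_iff_add_eq_add.mpr (h.trans (add_comm k' t'))
      have h2 : k - k' = 0 := hdis c _ (h1 ▸ Submodule.sub_mem _ ht' ht)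
        (Submodule.sub_mem _ hk hk')
      have h3 : t' - t = 0 := h1 ▸ h2
      simp only [sub_eq_zero] at h2 h3
      simp [h2, h3]
    · intro y
      obtain ⟨t, ht, hk⟩ := exists_decomp hpH ρ c y
      exact ⟨(⟨y - t, hk⟩, ⟨t, ht⟩), sub_add_cancel y t⟩
    · rintro ⟨⟨k, hk⟩, ⟨t, ht⟩⟩
      rw [← ad_add hz1]
      simp only [map_add, LinearMap.add_apply, com_inner_fix ρ hS ht hk, inner_fix_com ρ hS ht hk]
      congr 1; ring
  let q : (ZMod n)ˣ → ZMod p := fun a => ((a : ZMod n).val : ZMod p)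
  have hq : ∀ a, q a ≠ 0 := fun a h => by
    have h1 := (ZMod.natCast_eq_zero_iff _ _).mp h
    have h2 := Nat.dvd_gcd h1 hpn
    rw [ZMod.val_coe_unit_coprime a] at h2
    exact (Fact.out : p.Prime).not_dvd_one h2
  refine ⟨fun a c => gs z S (comSub ρ c) (q a), ⟨fun a => ?_, fun a c => isIntegral_gs hz _ _,
    fun a c => ?_, fun a c hc => ?_, fun a => ?_, 1, one_ne_zero, fun c => ?_⟩⟩
  · have hg := gs_fix_mem hS hz (q a)
    have hg' := gs_fix_mem hS hz (-(q a))
    have hne : ∀ c, gs z S (fixSub ρ c) (q a) ≠ 0 := fun c h => by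
      have h1 := gs_mul_conj hz hp2 hsym (fixSub ρ c) (hndF c) (hq a)
      rw [h, zero_mul, eq_comm, Nat.cast_eq_zero] at h1
      exact Nat.card_pos.ne' h1
    have hcl : IsClassFunction H (fun c => gs z S (comSub ρ c) (q a)) := fun x y => by
      refine mul_right_cancel₀ (hne x) ?_
      conv_lhs => rw [← show gs z S (fixSub ρ (y * x * y⁻¹)) (q a) = gs z S (fixSub ρ x) (q a) from
        hg.1 x y]
      rw [hsplit, hsplit]
    obtain ⟨d, hd⟩ := exists_eq_pow_card (⊤ : Submodule (ZMod p) M)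
    rw [Nat.card_congr Submodule.topEquiv.toEquiv] at hd
    refine IntCF.of_mul_ppow (p := p) Fact.out hpH hcl (fun c => isIntegral_gs hz _ _)
      (mul_mem hg hg') (e := d) (fun c => ?_) ?_
    · obtain ⟨j, hj⟩ := exists_eq_pow_card (fixSub ρ c)
      refine ⟨j, ?_, ?_⟩
      · have h1 := Nat.card_le_card_of_injective _ (fixSub ρ c).injective_subtype
        rw [hj, hd] at h1
        exact (Nat.pow_le_pow_iff_right (Fact.out : p.Prime).one_lt).mp h1
      · rw [Pi.mul_apply, ← conj_gs hz, gs_mul_conj hz hp2 hsym _ (hndF c) (hq a), hj]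
    · convert IntCF.smul_mem hg' (c := ∑ u : M, ad z (q a * S u u))
        (IsIntegral.sum _ fun _ _ => ad_isIntegral hz1 _) using 1
      funext c
      simp only [Pi.mul_apply, Pi.smul_apply, smul_eq_mul]
      rw [← mul_assoc, hsplit]
  · have h1 := gs_mul_conj hz hp2 hsym (comSub ρ c) (hndC c) (hq a)
    rw [Complex.mul_conj, Complex.normSq_eq_norm_sq] at h1
    exact_mod_cast h1
  · have h1 : MemLocalIdeal Mi (gs z S (comSub ρ c) (q a) - (Nat.card (comSub ρ c) : ℂ)) := by
      rw [gs, Nat.card_eq_fintype_card, show ((Fintype.card (comSub ρ c) : ℕ) : ℂ) =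
        ∑ _u : comSub ρ c, (1 : ℂ) by simp, ← Finset.sum_sub_distrib]
      exact Block.memLocalIdeal_sum _ _ fun u _ => root_sub_one_mem hM (ad_pow hz1 _)
    obtain ⟨k, hk⟩ := dvd_card_of_ne_bot hc
    have h2 : MemLocalIdeal Mi (Nat.card (comSub ρ c) : ℂ) := by
      rw [hk, Nat.cast_mul]
      exact Block.memLocalIdeal_mul_right ((Block.memLocalIdeal_natCast_iff hM p).mpr dvd_rfl)
        (Block.memLocalRing_of_isIntegral (Char.isIntegral_of_nat k))
    have := Block.memLocalIdeal_add h1 h2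
    simpa using this
  · have h1 : comSub ρ (1 : H) = ⊥ := by simp [comSub]
    show gs z S (comSub ρ (1 : H)) (q a) = 1
    rw [h1, gs, Fintype.sum_subsingleton _ 0]
    simp [ad_zero]
  · have hcs : ∀ a : (ZMod n)ˣ, comSub ρ (c ^ (a : ZMod n).val) = comSub ρ c := fun a => by
      have h1 := card_mul_card ρ c
      have h2 := card_mul_card ρ (c ^ (a : ZMod n).val)
      rw [fixSub_eq_of_pow' ρ hn a c, ← h1] at h2
      have hle : comSub ρ (c ^ (a : ZMod n).val) ≤ comSub ρ c := fun x hx => by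
        obtain ⟨y, rfl⟩ := exists_of_mem_comSub hx
        exact sub_pow_mem_comSub ρ c _ y
      refine SetLike.coe_injective (Set.eq_of_subset_of_ncard_le hle ?_ (Set.toFinite _))
      rw [← Nat.card_coe_set_eq, ← Nat.card_coe_set_eq]
      exact (mul_left_cancel₀ Nat.card_pos.ne' h2).ge
    have h : (fun a : (ZMod n)ˣ => ((1 : ℕ) : ℂ) * gs z S (comSub ρ (c ^ (a : ZMod n).val)) (q a)) =
        ∑ u : comSub ρ c, fun a : (ZMod n)ˣ => ad z (S (u : M) u) ^ (a : ZMod n).val := by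
      funext a
      rw [Nat.cast_one, one_mul, hcs a, gs, Finset.sum_apply]
      exact Finset.sum_congr rfl fun u _ => ad_natCast_mul hz1 _ _
    simp only [Nat.cast_one, one_mul] at h ⊢
    rw [h]
    refine sum_mem fun u _ => GalAvg.root_mem ?_
    obtain ⟨k, hk⟩ := hpn
    rw [hk, pow_mul, ad_pow hz1, one_pow]

end Cfsg.Agent.Delta.Gauss
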