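import Cfsg.Agent.Char.Virtual
import Cfsg.Agent.Char.Integrality
import Mathlib

/-!
# Class functions with integral coordinates
-/

set_option autoImplicit false
set_option linter.style.haveILetI false

open scoped ComplexConjugate
open Polynomial Finset

namespace Cfsg.Agent.IntCF

universe u

variable (H : Type u) [Group H] [Fintype H]

/-- Combinations of irreducible characters with algebraic integer coefficients. -/
noncomputable def intCF : Subring (H → ℂ) where
  carrier := {f | IsClassFunction H f ∧ ∀ φ : IrrCharacter H, IsIntegral ℤ (classInner f (φ : H → ℂ))}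
  zero_mem' := ⟨fun _ _ => rfl, fun φ => by rw [Char.classInner_zero_left]; exact isIntegral_zero⟩
  one_mem' := ⟨fun _ _ => rfl, fun φ => by
    classical
    have h := Char.classInner_irr (Char.isIrrCharacter_const_one (G := H)) φ.2
    rw [show (1 : H → ℂ) = (fun _ => (1 : ℂ)) from rfl, h]
    split_ifs
    · exact isIntegral_one
    · exact isIntegral_zero⟩
  neg_mem' := fun {f} hf => ⟨fun g h => by simp [hf.1 g h], fun φ => by
    rw [Char.classInner_neg_left]; exact (hf.2 φ).neg⟩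
  add_mem' := fun {f g} hf hg => ⟨fun x h => by simp [hf.1 x h, hg.1 x h], fun φ => by
    rw [Char.classInner_add_left]; exact (hf.2 φ).add (hg.2 φ)⟩
  mul_mem' := fun {f g} hf hg => ⟨fun x h => by simp [hf.1 x h, hg.1 x h], fun φ => by
    classical
    have h1 : f * g = ∑ χ : IrrCharacter H, ∑ ψ : IrrCharacter H,
        (classInner f (χ : H → ℂ) * classInner g (ψ : H → ℂ)) • ((χ : H → ℂ) * (ψ : H → ℂ)) := by
      conv_lhs => rw [Char.eq_sum_classInner_smul hf.1, Char.eq_sum_classInner_smul hg.1]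
      rw [Finset.sum_mul_sum]
      exact Finset.sum_congr rfl fun χ _ => Finset.sum_congr rfl fun ψ _ => smul_mul_smul_comm _ _ _ _
    rw [h1]
    simp only [Char.classInner_sum_left, Char.classInner_smul_left]
    refine IsIntegral.sum _ fun χ _ => IsIntegral.sum _ fun ψ _ => ((hf.2 χ).mul (hg.2 ψ)).mul ?_
    obtain ⟨k, hk⟩ := Char.isCharacter_classInner_nat
      (Char.isCharacter_mul (Char.isCharacter_of_irr χ.2) (Char.isCharacter_of_irr ψ.2)) φ
    rw [hk]
    exact Char.isIntegral_of_nat k⟩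

variable {H}

theorem of_isCharacter {χ : H → ℂ} (h : IsCharacter H χ) : χ ∈ intCF H :=
  ⟨Char.isCharacter_isClassFunction h, fun φ => by
    obtain ⟨k, hk⟩ := Char.isCharacter_classInner_nat h φ
    rw [hk]; exact Char.isIntegral_of_nat k⟩

theorem smul_mem {f : H → ℂ} (hf : f ∈ intCF H) {c : ℂ} (hc : IsIntegral ℤ c) : c • f ∈ intCF H :=
  ⟨fun x h => by simp [hf.1 x h], fun φ => by
    rw [Char.classInner_smul_left]; exact hc.mul (hf.2 φ)⟩

theorem sum_smul_irr_mem (z : IrrCharacter H → ℂ) (hz : ∀ φ, IsIntegral ℤ (z φ)) :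
    (fun c => ∑ φ : IrrCharacter H, z φ * (φ : H → ℂ) c) ∈ intCF H := by
  have : (fun c => ∑ φ : IrrCharacter H, z φ * (φ : H → ℂ) c) =
      ∑ φ : IrrCharacter H, z φ • (φ : H → ℂ) := by ext c; simp [Finset.sum_apply]
  rw [this]
  exact Subring.sum_mem _ fun φ _ => smul_mem (of_isCharacter (Char.isCharacter_of_irr φ.2)) (hz φ)

/-- Denominators dividing both `|H|` and a power of `p` disappear. -/
theorem of_ppow {p : ℕ} (hp : p.Prime) (hpH : ¬ p ∣ Nat.card H) {f : H → ℂ}
    (hcl : IsClassFunction H f) (hint : ∀ c, IsIntegral ℤ (f c)) {k : ℕ}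
    (hk : ((p ^ k : ℕ) : ℂ) • f ∈ intCF H) : f ∈ intCF H := by
  refine ⟨hcl, fun φ => ?_⟩
  have h1 := hk.2 φ
  rw [Char.classInner_smul_left] at h1
  have h2 : IsIntegral ℤ ((Nat.card H : ℂ) * classInner f (φ : H → ℂ)) := by
    rw [← Char.sum_mul_conj_eq_card_mul_classInner]
    refine IsIntegral.sum _ fun c _ => (hint c).mul ?_
    rw [← Char.irr_inv φ.2]
    exact Char.isCharacter_isIntegral (Char.isCharacter_of_irr φ.2) _
  have hcop : Nat.Coprime (p ^ k) (Nat.card H) :=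
    Nat.Coprime.pow_left _ ((Nat.Prime.coprime_iff_not_dvd hp).mpr hpH)
  have hb := Nat.gcd_eq_gcd_ab (p ^ k) (Nat.card H)
  rw [hcop] at hb
  have hb' := congrArg (fun z : ℤ => (z : ℂ)) hb
  simp only [Int.cast_add, Int.cast_mul, Int.cast_natCast, Nat.cast_one, Int.cast_one] at hb'
  have : classInner f (φ : H → ℂ) =
      (Nat.gcdA (p ^ k) (Nat.card H) : ℂ) * (((p ^ k : ℕ) : ℂ) * classInner f (φ : H → ℂ)) +
      (Nat.gcdB (p ^ k) (Nat.card H) : ℂ) * ((Nat.card H : ℂ) * classInner f (φ : H → ℂ)) := by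
    linear_combination (classInner f (φ : H → ℂ)) * hb'
  rw [this]
  exact ((Char.isIntegral_of_int _).mul h1).add ((Char.isIntegral_of_int _).mul h2)

/-- Dividing by an element of `intCF` whose values are powers of `p`. -/
theorem of_mul_ppow {p : ℕ} (hp : p.Prime) (hpH : ¬ p ∣ Nat.card H) {f g : H → ℂ}
    (hcl : IsClassFunction H f) (hint : ∀ c, IsIntegral ℤ (f c)) (hg : g ∈ intCF H) {e : ℕ}
    (hgv : ∀ c, ∃ j ≤ e, g c = ((p ^ j : ℕ) : ℂ)) (hfg : f * g ∈ intCF H) : f ∈ intCF H := by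
  set Q : ℤ[X] := ∏ j ∈ range (e + 1), (X - C ((p ^ j : ℕ) : ℤ)) with hQ
  have hQ0 : Q.coeff 0 = ∏ j ∈ range (e + 1), -((p ^ j : ℕ) : ℤ) := by
    rw [Polynomial.coeff_zero_eq_eval_zero, hQ, eval_prod]
    simp
  have hmem : ∀ R : ℤ[X], aeval g R ∈ intCF H := fun R => by
    induction R using Polynomial.induction_on' with
    | add a b ha hb => rw [map_add]; exact add_mem ha hb
    | monomial i c =>
      rw [aeval_monomial]
      refine mul_mem ?_ (pow_mem hg i)
      simpa using intCast_mem (intCF H) c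
  have hQg : aeval g Q = 0 := by
    ext c
    obtain ⟨j, hj, hc⟩ := hgv c
    rw [hQ, map_prod, Finset.prod_apply, Pi.zero_apply]
    refine Finset.prod_eq_zero (mem_range.mpr (Nat.lt_succ_of_le hj)) ?_
    rw [map_sub, aeval_X, aeval_C, Pi.sub_apply, hc]
    simp
  have hdec : aeval g (Q.divX) * g + ((Q.coeff 0 : ℤ) : H → ℂ) = 0 := by
    conv_rhs => rw [← hQg, ← Q.divX_mul_X_add]
    rw [map_add, map_mul, aeval_X, aeval_C]
    simp
  have hkey : f * ((Q.coeff 0 : ℤ) : H → ℂ) = -((f * g) * aeval g Q.divX) := by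
    linear_combination f * hdec
  have hmem' : f * ((Q.coeff 0 : ℤ) : H → ℂ) ∈ intCF H :=
    hkey ▸ neg_mem (mul_mem hfg (hmem _))
  refine of_ppow hp hpH hcl hint (k := ∑ j ∈ range (e + 1), j) ?_
  have hs : (((-1 : ℤ) ^ (e + 1) : ℤ) : H → ℂ) * (f * ((Q.coeff 0 : ℤ) : H → ℂ)) =
      ((p ^ (∑ j ∈ range (e + 1), j) : ℕ) : ℂ) • f := by
    have hn : ∏ j ∈ range (e + 1), -((p ^ j : ℕ) : ℤ) =
        (-1) ^ (e + 1) * ((p ^ (∑ j ∈ range (e + 1), j) : ℕ) : ℤ) := by
      rw [Finset.prod_neg, Finset.card_range, ← Nat.cast_prod, Finset.prod_pow_eq_pow_sum]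
    ext c
    rw [hQ0, hn]
    simp only [Pi.mul_apply, Pi.intCast_apply, Pi.smul_apply, smul_eq_mul, Int.cast_mul,
      Int.cast_natCast, Int.cast_pow, Int.cast_neg, Int.cast_one]
    calc (-1 : ℂ) ^ (e + 1) * (f c * ((-1) ^ (e + 1) * ((p ^ (∑ j ∈ range (e + 1), j) : ℕ) : ℂ)))
        = ((-1 : ℂ) * (-1)) ^ (e + 1) *
            (((p ^ (∑ j ∈ range (e + 1), j) : ℕ) : ℂ) * f c) := by rw [mul_pow]; ring
      _ = _ := by norm_num
  rw [← hs]
  exact mul_mem (intCast_mem _ _) hmem'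

end Cfsg.Agent.IntCF
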