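import Cfsg.Agent.BlkChar.SylowExtend
import Cfsg.Agent.Brauer.Kernel
import Cfsg.Agent.Brauer.WeakOrth
import Cfsg.Agent.Block.GroupAlgebra
import Cfsg.Agent.Lib.PLength
import Cfsg.Agent.Cores.Basic
import Cfsg.Agent.Char.InvolutionCount

/-!
# `p`-length one and the principal block on a Sylow normalizer (Isaacs–Smith)

If every character in the principal block restricts irreducibly to `N = N_G(P)`, then every
`θ ∈ Irr(N)` trivial on `P' O_{p'}(N)` extends to a member of the principal block; the kernels of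
the extensions and two transfer arguments show that `G` has `p`-length one.
-/

set_option autoImplicit false
set_option linter.style.haveILetI false

open Subgroup
open scoped commutatorElement ComplexConjugate

namespace Cfsg.Agent.BlkPLen

open Cfsg.Agent.Block

universe u

variable {p : ℕ} [hp : Fact p.Prime]

section congr

variable {M : Ideal AlgInt} [M.IsPrime]

/-- A sum of an invariant function is congruent to its sum over the centraliser of a `p`-group. -/
theorem redC_sum_eq_centralizer (hM : IsPModular p M) {X : Type u} [Group X] [Fintype X]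
    (Q : Subgroup X) (hQ : IsPGroup p Q) (f : X → ℂ) (hint : ∀ x, MemLocalRing M (f x))
    (hinv : ∀ a x : X, f (a * x * a⁻¹) = f x) [DecidablePred (· ∈ centralizer (Q : Set X))] :
    redC M (∑ x, f x) = ∑ x with x ∈ centralizer (Q : Set X), redC M (f x) := by
  classical
  haveI := charP_resF hM
  letI : MulAction Q X :=
    MulAction.compHom X ((ConjAct.toConjAct (G := X)).toMonoidHom.comp Q.subtype)
  have hsmul : ∀ (a : Q) (x : X), a • x = (a : X) * x * (a : X)⁻¹ := fun _ _ => rfl
  rw [redC_sum _ _ (fun x _ => hint x),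
    sum_eq_sum_fixedPoints hQ (fun x => redC M (f x)) (fun a x => by rw [hsmul, hinv])]
  refine Finset.sum_congr (Finset.filter_congr fun x _ => ?_) fun _ _ => rfl
  rw [MulAction.mem_fixedPoints, mem_centralizer_iff]
  constructor
  · intro h a ha
    have e := h ⟨a, ha⟩
    rw [hsmul, mul_inv_eq_iff_eq_mul] at e
    exact e
  · intro h a
    rw [hsmul, mul_inv_eq_iff_eq_mul]
    exact h a a.2

end congr

variable {G : Type u} [Group G] [Finite G]

/-- The `p'`-elements of the centraliser of a normal Sylow subgroup lie in the `p'`-core. -/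
theorem mem_pPrimeCore_of_centralizes {N : Type u} [Group N] [Finite N] (P : Sylow p N)
    [hPn : (P : Subgroup N).Normal] {n : N} (hn : n ∈ centralizer ((P : Subgroup N) : Set N))
    (ho : ¬ p ∣ orderOf n) : n ∈ Cfsg.pPrimeCore p N := by
  set C := centralizer ((P : Subgroup N) : Set N) with hC
  haveI : C.Normal := by
    rw [hC, ← normalizer_eq_top_iff, eq_top_iff]
    intro g _
    rw [mem_normalizer_iff]
    intro h
    simp only [mem_centralizer_iff]
    refine ⟨fun hh z hz => ?_, fun hh z hz => ?_⟩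
    · have h1 : g⁻¹ * z * g ∈ (P : Subgroup N) := by simpa using hPn.conj_mem z hz g⁻¹
      calc z * (g * h * g⁻¹) = g * ((g⁻¹ * z * g) * h) * g⁻¹ := by group
        _ = g * (h * (g⁻¹ * z * g)) * g⁻¹ := by rw [hh _ h1]
        _ = g * h * g⁻¹ * z := by group
    · have h1 : g * z * g⁻¹ ∈ (P : Subgroup N) := hPn.conj_mem z hz g
      calc z * h = g⁻¹ * ((g * z * g⁻¹) * (g * h * g⁻¹)) * g := by group
        _ = g⁻¹ * ((g * h * g⁻¹) * (g * z * g⁻¹)) * g := by rw [hh _ h1]
        _ = h * z := by group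
  obtain ⟨Q⟩ : Nonempty (Sylow p C) := inferInstance
  have hQP : ∀ x ∈ (Q : Subgroup C), (x : N) ∈ (P : Subgroup N) := by
    intro x hx
    have h1 : IsPGroup p ((Q : Subgroup C).map C.subtype) := Q.2.map _
    obtain ⟨Q', hQ'⟩ := h1.exists_le_sylow
    letI := Sylow.unique_of_normal P inferInstance
    rw [Subsingleton.elim Q' P] at hQ'
    exact hQ' ⟨x, hx, rfl⟩
  have hcompl : Cfsg.HasNormalPComplement p C :=
    Transfer.hasNormalPComplement_of_normalizer_le_centralizer Q fun x _ =>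
      mem_centralizer_iff.mpr fun y hy => Subtype.ext
        (mem_centralizer_iff.mp x.2 (y : N) (hQP y hy))
  have hR : ((Cfsg.pResidual p C).map C.subtype) ≤ Cfsg.pPrimeCore p N := by
    refine Cores.le_pPrimeCore_of_not_dvd inferInstance ?_
    rw [card_map_of_injective C.subtype_injective]
    exact Transfer.hasNormalPComplement_iff.mp hcompl
  refine hR ⟨⟨n, hn⟩, subset_closure ?_, rfl⟩
  show Nat.Coprime (orderOf (⟨n, hn⟩ : C)) p
  rw [orderOf_mk]
  exact ((hp.1.coprime_iff_not_dvd).mpr ho).symm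

/-- Under the hypothesis, characters of `N` trivial on `P' O_{p'}(N)` extend to the principal
block. -/
theorem exists_ext {M : Ideal AlgInt} (hM : IsPModular p M) (P : Sylow p G) (N : Subgroup G)
    (hPN : (P : Subgroup G) ≤ N) (hnorm : ((P : Subgroup G).subgroupOf N).Normal)
    (hCN : centralizer ((P : Subgroup G) : Set G) ≤ N)
    (h : ∀ χ ∈ principalBlock M G, IsIrrCharacter N (fun n : N => (χ : G → ℂ) n))
    (θ : IrrCharacter N) (hdeg : ¬ p ∣ charDegree (θ : N → ℂ))
    (hθ : ∀ n ∈ Cfsg.pPrimeCore p N, (θ : N → ℂ) n = (θ : N → ℂ) 1) :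
    ∃ χ : IrrCharacter G, χ ∈ principalBlock M G ∧
      ∀ n : N, (χ : G → ℂ) n = (θ : N → ℂ) n := by
  classical
  haveI : M.IsPrime := hM.2.1.isPrime
  letI := Fintype.ofFinite G
  letI := Fintype.ofFinite N
  set B : Set (IrrCharacter G) := principalBlock M G with hB
  have hBB : IsPBlock M B := ⟨⟨_, Char.isIrrCharacter_const_one⟩, rfl⟩
  by_contra hcon
  push Not at hcon
  have hzero : ∀ χ ∈ B, classInner (fun n : N => (θ : N → ℂ) n) (fun n : N => (χ : G → ℂ) n) = 0 := by
    intro χ hχ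
    refine Char.classInner_irr_ne θ.2 (h χ hχ) fun e => ?_
    obtain ⟨n, hn⟩ := hcon χ hχ
    exact hn (congrFun e n).symm
  have hint : ∀ g : G, MemLocalRing M (blockCoeff B g) := blockCoeff_memLocalRing hBB
  -- the twisted sum over `N` vanishes
  have hS : ∑ n : N, blockCoeff B (n : G) * (θ : N → ℂ) n = 0 := by
    simp only [blockCoeff_eq_sum, Finset.mul_sum, Finset.sum_mul]
    rw [Finset.sum_comm]
    refine Finset.sum_eq_zero fun χ hχ => ?_
    have h0 := hzero χ (Finset.mem_filter.mp hχ).2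
    have hc : (Nat.card N : ℂ) ≠ 0 := Nat.cast_ne_zero.mpr Nat.card_pos.ne'
    rw [classInner, mul_eq_zero, or_iff_right (inv_ne_zero hc)] at h0
    rw [Finset.sum_congr rfl (g := fun n : N => (Nat.card G : ℂ)⁻¹ * (χ : G → ℂ) 1 *
      ((θ : N → ℂ) n * conj ((χ : G → ℂ) n))) (fun n _ => by ring), ← Finset.mul_sum, h0, mul_zero]
  -- the sum over `G` is one
  have hG : ∑ g : G, blockCoeff B g = 1 := by
    simp only [blockCoeff_eq_sum, Finset.mul_sum]
    rw [Finset.sum_comm]
    have hterm : ∀ χ : IrrCharacter G, ∑ g : G, (Nat.card G : ℂ)⁻¹ *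
        ((χ : G → ℂ) 1 * conj ((χ : G → ℂ) g)) =
        (χ : G → ℂ) 1 * conj (classInner (χ : G → ℂ) (fun _ => 1)) := by
      intro χ
      simp only [classInner, map_mul, map_inv₀, map_natCast, map_sum, map_one, mul_one,
        ← Finset.mul_sum]
      ring
    rw [Finset.sum_congr rfl fun χ _ => hterm χ,
      Finset.sum_eq_single (⟨_, Char.isIrrCharacter_const_one⟩ : IrrCharacter G)]
    · simp [Char.classInner_irr_self Char.isIrrCharacter_const_one]
    · intro χ _ hne
      rw [Char.classInner_irr_ne χ.2 Char.isIrrCharacter_const_one fun e => hne (Subtype.ext e)]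
      simp
    · intro hnot
      refine absurd ?_ hnot
      rw [Finset.mem_filter]
      exact ⟨Finset.mem_univ _, (sameBlock_refl _ :
        SameBlock M (fun _ : G => (1 : ℂ)) (fun _ : G => (1 : ℂ)))⟩
  -- reduce both sums to the centraliser
  set PN := (P : Subgroup G).subgroupOf N with hPNdef
  have hPNp : IsPGroup p PN := P.2.of_equiv (subgroupOfEquivOfLe hPN).symm
  haveI : PN.Normal := hnorm
  have h1 := redC_sum_eq_centralizer hM PN hPNp (fun n : N => blockCoeff B (n : G) * (θ : N → ℂ) n)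
    (fun n => (localRing M).mul_mem (hint _) (char_memLocalRing θ.2 n))
    (fun a x => by
      rw [Subgroup.coe_mul, Subgroup.coe_mul, Subgroup.coe_inv, blockCoeff_conj_invariant,
        Char.irr_isClassFunction θ.2])
  have h2 := redC_sum_eq_centralizer hM (P : Subgroup G) P.2 (fun g => blockCoeff B g) hint
    (fun a x => blockCoeff_conj_invariant B x a)
  rw [hS, redC_zero] at h1
  rw [hG, redC_one] at h2
  have hterm : ∀ n : N, n ∈ centralizer (PN : Set N) →
      redC M (blockCoeff B (n : G) * (θ : N → ℂ) n) =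
        redC M (blockCoeff B (n : G)) * redC M ((θ : N → ℂ) 1) := by
    intro n hn
    rw [redC_mul (hint _) (char_memLocalRing θ.2 n)]
    by_cases ho : p ∣ orderOf (n : G)
    · rw [Brauer.blockCoeff_eq_zero_of_integral hM B hint ho, redC_zero, zero_mul, zero_mul]
    · let PS : Sylow p N := P.subtype hPN
      haveI : (PS : Subgroup N).Normal := by
        rw [show (PS : Subgroup N) = PN from Sylow.coe_subtype ..]; infer_instance
      rw [hθ n (mem_pPrimeCore_of_centralizes PS
        (by rw [show (PS : Subgroup N) = PN from Sylow.coe_subtype ..]; exact hn)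
        (by rwa [← Subgroup.orderOf_coe]))]
  rw [Finset.sum_congr rfl (fun n hn => hterm n (Finset.mem_filter.mp hn).2), ← Finset.sum_mul] at h1
  have hsame : ∑ n : N with n ∈ centralizer (PN : Set N), redC M (blockCoeff B (n : G)) =
      ∑ g : G with g ∈ centralizer ((P : Subgroup G) : Set G), redC M (blockCoeff B g) := by
    refine Finset.sum_bij (fun n _ => (n : G)) (fun n hn => ?_)
      (fun a _ b _ e => Subtype.ext e) (fun g hg => ?_) (fun _ _ => rfl)
    · rw [Finset.mem_filter] at hn ⊢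
      refine ⟨Finset.mem_univ _, mem_centralizer_iff.mpr fun y hy => ?_⟩
      exact congrArg Subtype.val (mem_centralizer_iff.mp hn.2 ⟨y, hPN hy⟩ hy)
    · rw [Finset.mem_filter] at hg
      refine ⟨⟨g, hCN hg.2⟩, ?_, rfl⟩
      rw [Finset.mem_filter]
      exact ⟨Finset.mem_univ _, mem_centralizer_iff.mpr fun y hy =>
        Subtype.ext (mem_centralizer_iff.mp hg.2 (y : G) hy)⟩
  rw [hsame, ← h2, one_mul, (Char.irr_charDegree_spec θ.2).2, redC_natCast] at h1
  haveI := charP_resF hM
  exact hdeg ((CharP.cast_eq_zero_iff (ResF M) p _).mp h1.symm)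

/-- The converse direction. -/
theorem pLengthLE_of_restrict {M : Ideal AlgInt} (hM : IsPModular p M) (P : Sylow p G)
    (h : ∀ χ ∈ principalBlock M G,
      IsIrrCharacter ↥(normalizer ((P : Subgroup G) : Set G))
        (fun n : ↥(normalizer ((P : Subgroup G) : Set G)) => (χ : G → ℂ) n)) :
    Cfsg.PLengthLE p 1 G := by
  classical
  set N := normalizer ((P : Subgroup G) : Set G) with hN
  have hPN : (P : Subgroup G) ≤ N := le_normalizer
  set PN := (P : Subgroup G).subgroupOf N with hPNdef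
  let PS : Sylow p N := P.subtype hPN
  have hPScoe : (PS : Subgroup N) = PN := Sylow.coe_subtype ..
  haveI hPNn : PN.Normal := normal_in_normalizer
  haveI hPSn : (PS : Subgroup N).Normal := by rw [hPScoe]; exact hPNn
  set O := Cfsg.pPrimeCore p ↥N with hO
  haveI : (⁅PN, PN⁆).Normal := commutator_normal _ _
  set D : Subgroup ↥N := ⁅PN, PN⁆ ⊔ O with hD
  have hOdisj : Disjoint PN O := by
    rw [disjoint_iff]
    refine inf_eq_bot_of_coprime ?_
    obtain ⟨k, hk⟩ := IsPGroup.iff_card.mp (P.2.of_equiv (subgroupOfEquivOfLe hPN).symm)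
    rw [hk]
    exact Nat.Coprime.pow_left _ (Cores.pPrimeCore_coprime.symm)
  have hOcomm : ∀ a ∈ PN, ∀ b ∈ O, a * b = b * a := fun a ha b hb =>
    (commute_of_normal_of_disjoint PN O inferInstance inferInstance hOdisj a b ha hb).eq
  -- kernels of extensions
  have key : ∀ E : Subgroup ↥N, E.Normal → D ≤ E →
      ∃ K : Subgroup G, K.Normal ∧ ∀ x : ↥N, (x : G) ∈ K ↔ x ∈ E := by
    intro E hE hDE
    let I := {θ : IrrCharacter ↥N // ∀ e ∈ E, (θ : ↥N → ℂ) e = (θ : ↥N → ℂ) 1}
    have hext : ∀ i : I, ∃ χ : IrrCharacter G,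
        ∀ n : ↥N, (χ : G → ℂ) n = (i.1 : ↥N → ℂ) n := fun i => by
      obtain ⟨χ, -, hχ⟩ := exists_ext hM P N hPN hPNn (centralizer_le_normalizer _) h i.1
        (SylowExtend.not_dvd_degree PS ⁅PN, PN⁆ (by rw [hPScoe]) i.1
          fun d hd => i.2 d (hDE (mem_sup_left hd)))
        (fun n hn => i.2 n (hDE (mem_sup_right hn)))
      exact ⟨χ, hχ⟩
    choose χ hχ using hext
    choose Ker hKn hKer using fun i : I =>
      Char.isCharacter_exists_kernel (Char.isCharacter_of_irr (χ i).2)
    refine ⟨⨅ i, Ker i, normal_iInf_normal hKn, fun x => ?_⟩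
    rw [mem_iInf, Char.mem_normal_iff_forall_irr E x]
    refine forall_congr' (fun i => ?_) |>.trans ⟨fun H θ hθ => H ⟨θ, hθ⟩, fun H i => H i.1 i.2⟩
    rw [hKer, ← hχ i x, ← hχ i 1, Subgroup.coe_one]
  obtain ⟨K, hKn, hKmem⟩ := key D inferInstance le_rfl
  obtain ⟨K₁, hK₁n, hK₁mem⟩ := key (PN ⊔ O) inferInstance
    (sup_le_sup_right (commutator_le_self _) _)
  haveI := hKn
  haveI := hK₁n
  have hPK₁ : (P : Subgroup G) ≤ K₁ := fun x hx =>
    (hK₁mem ⟨x, hPN hx⟩).mpr (mem_sup_left hx)
  have hKP : ∀ x ∈ (P : Subgroup G), x ∈ K →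
      x ∈ ⁅(P : Subgroup G), (P : Subgroup G)⁆ := by
    intro x hx hxK
    have h1 := (hKmem ⟨x, hPN hx⟩).mp hxK
    rw [hD, mem_sup_of_normal_right] at h1
    obtain ⟨a, ha, o, ho, hao⟩ := h1
    have ho1 : o = 1 := by
      have hoP : o ∈ PN := by
        have : o = a⁻¹ * ⟨x, hPN hx⟩ := by rw [← hao]; group
        rw [this]
        exact mul_mem (inv_mem (commutator_le_self _ ha)) hx
      exact mem_bot.mp (hOdisj.le_bot ⟨hoP, ho⟩)
    subst ho1
    rw [mul_one] at hao
    subst hao
    have h2 : (⁅PN, PN⁆).map N.subtype = ⁅(P : Subgroup G), (P : Subgroup G)⁆ := by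
      rw [map_commutator, hPNdef, subgroupOf_map_subtype, inf_eq_left.mpr hPN]
    exact h2 ▸ ⟨_, ha, rfl⟩
  -- `K₁` modulo `K' := K ⊓ K₁` has a central Sylow subgroup in the normalizer
  set O' := K ⊓ K₁ with hO'
  haveI : O'.Normal := inferInstance
  set π := QuotientGroup.mk' O' with hπ
  have hπs : Function.Surjective π := QuotientGroup.mk'_surjective O'
  set Kb : Subgroup (G ⧸ O') := K₁.map π with hKb
  haveI : Kb.Normal := hK₁n.map _ hπs
  let Pb : Sylow p (G ⧸ O') := P.mapSurjective hπs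
  have hPb : (Pb : Subgroup (G ⧸ O')) = (P : Subgroup G).map π := Sylow.coe_mapSurjective ..
  have hPKb : (Pb : Subgroup (G ⧸ O')) ≤ Kb := hPb ▸ map_mono hPK₁
  have hab : ∀ a ∈ (Pb : Subgroup (G ⧸ O')), ∀ b ∈ (Pb : Subgroup (G ⧸ O')), a * b = b * a := by
    rw [hPb]
    rintro _ ⟨a, ha, rfl⟩ _ ⟨b, hb, rfl⟩
    rw [← map_mul, ← map_mul, hπ, QuotientGroup.mk'_eq_mk']
    refine ⟨(a * b)⁻¹ * (b * a), ?_, by group⟩
    have hm : (a * b)⁻¹ * (b * a) ∈ ⁅(P : Subgroup G), (P : Subgroup G)⁆ := by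
      rw [show (a * b)⁻¹ * (b * a) = ⁅b⁻¹, a⁻¹⁆ by rw [commutatorElement_def]; group]
      exact commutator_mem_commutator (inv_mem hb) (inv_mem ha)
    have hmP : (a * b)⁻¹ * (b * a) ∈ (P : Subgroup G) := commutator_le_self _ hm
    refine ⟨(hKmem ⟨_, hPN hmP⟩).mpr (mem_sup_left ?_), hPK₁ hmP⟩
    have h2 : (⁅PN, PN⁆).map N.subtype = ⁅(P : Subgroup G), (P : Subgroup G)⁆ := by
      rw [map_commutator, hPNdef, subgroupOf_map_subtype, inf_eq_left.mpr hPN]
    rw [← h2] at hm
    obtain ⟨y, hy, hye⟩ := hm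
    exact (Subtype.ext hye : y = ⟨_, hPN hmP⟩) ▸ hy
  have hNK : ∀ x ∈ K₁, π x ∈ normalizer ((Pb : Subgroup (G ⧸ O')) : Set (G ⧸ O')) →
      ∀ y ∈ (P : Subgroup G), π y * π x = π x * π y := by
    intro x hx hq y hy
    -- move `x` into `N` modulo the preimage of the Sylow subgroup
    set R := (normalizer ((Pb : Subgroup (G ⧸ O')) : Set (G ⧸ O'))).comap π ⊓ K₁ with hR
    set Mm := ((Pb : Subgroup (G ⧸ O'))).comap π ⊓ K₁ with hMm
    have hMR : Mm ≤ R := inf_le_inf_right _ (comap_mono le_normalizer)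
    haveI hMn : (Mm.subgroupOf R).Normal := ⟨fun m hm r => by
      rw [mem_subgroupOf] at hm ⊢
      refine ⟨?_, K₁.mul_mem (K₁.mul_mem r.2.2 hm.2) (K₁.inv_mem r.2.2)⟩
      show π ((r : G) * (m : G) * (r : G)⁻¹) ∈ (Pb : Subgroup (G ⧸ O'))
      rw [map_mul, map_mul, map_inv]
      exact (mem_normalizer_iff.mp r.2.1 _).mp hm.1⟩
    have hPM : (P : Subgroup G) ≤ Mm := fun y hy =>
      ⟨by show π y ∈ (Pb : Subgroup (G ⧸ O')); rw [hPb]; exact mem_map_of_mem _ hy, hPK₁ hy⟩
    have hF := Sylow.normalizer_sup_eq_top' (p := p) (N := Mm.subgroupOf R)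
      (P.subtype (hPM.trans hMR)) (by rw [Sylow.coe_subtype]; exact fun z hz => hPM hz)
    have hxR : x ∈ R := ⟨hq, hx⟩
    have hxm : (⟨x, hxR⟩ : ↥R) ∈ (⊤ : Subgroup ↥R) := mem_top _
    rw [← hF, mem_sup_of_normal_right] at hxm
    obtain ⟨r, hr, m, hm, hrm⟩ := hxm
    have hx' : x = (r : G) * (m : G) := (congrArg Subtype.val hrm).symm
    have hrN : (r : G) ∈ N := by
      rw [hN, mem_normalizer_iff]
      intro y
      change r ∈ normalizer (((P.subtype (hPM.trans hMR) : Sylow p ↥R) : Subgroup ↥R) : Set ↥R) at hr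
      rw [Sylow.coe_subtype, mem_normalizer_iff] at hr
      refine ⟨fun hy => ?_, fun hy => ?_⟩
      · exact mem_subgroupOf.mp ((hr ⟨y, hMR (hPM hy)⟩).mp (mem_subgroupOf.mpr hy))
      · have hyR : y ∈ R := by
          have := R.mul_mem (R.mul_mem (R.inv_mem r.2) (hMR (hPM hy))) r.2
          simpa [mul_assoc] using this
        exact mem_subgroupOf.mp ((hr ⟨y, hyR⟩).mpr (mem_subgroupOf.mpr hy))
    have hrE : (⟨r, hrN⟩ : ↥N) ∈ PN ⊔ O := (hK₁mem ⟨r, hrN⟩).mp r.2.2
    rw [mem_sup_of_normal_right] at hrE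
    obtain ⟨a, ha, o, ho, hao⟩ := hrE
    have hra : (r : G) = (a : G) * (o : G) := (congrArg Subtype.val hao).symm
    have haP : π (a : G) ∈ (Pb : Subgroup (G ⧸ O')) := by
      rw [hPb]; exact mem_map_of_mem _ ha
    have hmP : π (m : G) ∈ (Pb : Subgroup (G ⧸ O')) := (mem_subgroupOf.mp hm).1
    have hyb : π y ∈ (Pb : Subgroup (G ⧸ O')) := by rw [hPb]; exact mem_map_of_mem _ hy
    have hoy : (o : G) * y = y * o :=
      (congrArg Subtype.val (hOcomm ⟨y, hPN hy⟩ hy o ho)).symm
    rw [hx', hra, map_mul, map_mul]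
    have e1 := hab _ hyb _ haP
    have e2 := hab _ hyb _ hmP
    have e3 : π (o : G) * π y = π y * π (o : G) := by rw [← map_mul, hoy, map_mul]
    calc π y * (π (a : G) * π (o : G) * π (m : G))
        = π y * π (a : G) * π (o : G) * π (m : G) := by simp only [mul_assoc]
      _ = π (a : G) * π y * π (o : G) * π (m : G) := by rw [e1]
      _ = π (a : G) * π (o : G) * (π y * π (m : G)) := by
          rw [mul_assoc (π (a : G)) (π y), ← e3]; simp only [mul_assoc]
      _ = π (a : G) * π (o : G) * π (m : G) * π y := by rw [e2]; simp only [mul_assoc]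
  let PKb : Sylow p ↥Kb := Pb.subtype hPKb
  have hburn : Cfsg.HasNormalPComplement p ↥Kb :=
    Transfer.hasNormalPComplement_of_normalizer_le_centralizer PKb fun q hq => by
      have hqn : (q : G ⧸ O') ∈ normalizer ((Pb : Subgroup (G ⧸ O')) : Set (G ⧸ O')) := by
        rw [Sylow.coe_subtype, mem_normalizer_iff] at hq
        rw [mem_normalizer_iff]
        intro y
        refine ⟨fun hy => mem_subgroupOf.mp ((hq ⟨y, hPKb hy⟩).mp (mem_subgroupOf.mpr hy)),
          fun hy => ?_⟩
        have hyK : y ∈ Kb := by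
          have := Kb.mul_mem (Kb.mul_mem (Kb.inv_mem q.2) (hPKb hy)) q.2
          simpa [mul_assoc] using this
        exact mem_subgroupOf.mp ((hq ⟨y, hyK⟩).mpr (mem_subgroupOf.mpr hy))
      obtain ⟨x, hx, hxq⟩ := q.2
      rw [mem_centralizer_iff]
      intro y hy
      rw [Sylow.coe_subtype, SetLike.mem_coe, mem_subgroupOf, hPb] at hy
      obtain ⟨y', hy', hyy⟩ := hy
      apply Subtype.ext
      rw [Subgroup.coe_mul, Subgroup.coe_mul, ← hyy, ← hxq]
      exact hNK x hx (hxq ▸ hqn) y' hy'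
  haveI := hburn
  set R : Subgroup (G ⧸ O') := (Cfsg.pResidual p ↥Kb).map Kb.subtype with hRdef
  haveI : R.Normal := by rw [hRdef]; infer_instance
  set L := R.comap π with hL
  haveI : L.Normal := inferInstance
  have hLP : L ⊓ (P : Subgroup G) ≤ (frattini ↥(P : Subgroup G)).map (P : Subgroup G).subtype := by
    rintro x ⟨hxL, hxP⟩
    have h1 : π x ∈ (Pb : Subgroup (G ⧸ O')) := hPb ▸ mem_map_of_mem _ hxP
    obtain ⟨y, hy, hyx⟩ := hxL
    have hyP : y ∈ (PKb : Subgroup ↥Kb) := by
      rw [Sylow.coe_subtype, mem_subgroupOf, show (y : G ⧸ O') = π x from hyx]; exact h1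
    have h2 := (Transfer.hasNormalPComplement_iff_disjoint PKb).mp hburn
    have hy1 : y = 1 := mem_bot.mp (h2 ▸ ⟨hy, hyP⟩)
    have hxO : x ∈ O' := by
      rw [← QuotientGroup.eq_one_iff]
      exact hyx.symm.trans (by rw [hy1]; rfl)
    have h3 := hKP x hxP hxO.1
    rw [← map_subtype_commutator] at h3
    exact map_mono (PGroup.commutator_le_frattini P.2) h3
  have hTate := Transfer.hasNormalPComplement_of_inf_le_frattini P L hLP
  set L₀ : Subgroup G := (Cfsg.pResidual p ↥L).map L.subtype with hL₀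
  haveI : L₀.Normal := by rw [hL₀]; infer_instance
  have hL₀p : ¬ p ∣ Nat.card L₀ := by
    rw [hL₀, card_map_of_injective L.subtype_injective]
    exact Transfer.hasNormalPComplement_iff.mp hTate
  have hidx : ∀ {X : Type u} [Group X] [Finite X], Cfsg.HasNormalPComplement p X →
      ∃ a, (Cfsg.pResidual p X).index = p ^ a := fun {X} _ _ hX => by
    obtain ⟨Q⟩ : Nonempty (Sylow p X) := inferInstance
    obtain ⟨a, ha⟩ := IsPGroup.iff_card.mp Q.2
    exact ⟨a, by rw [(Transfer.isComplement'_pResidual hX Q).symm.index_eq_card, ha]⟩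
  obtain ⟨a, ha⟩ := hidx hburn
  obtain ⟨b, hb⟩ := hidx hTate
  have hLK : L ≤ K₁ := by
    rw [hL, hRdef]
    refine (comap_mono (map_subtype_le _)).trans ?_
    rw [hKb, comap_map_eq, hπ, QuotientGroup.ker_mk']
    exact sup_le le_rfl inf_le_right
  have hL₀L : L₀ ≤ L := map_subtype_le _
  have h1 : L.relIndex K₁ = p ^ a := by
    rw [hL, relIndex_comap, ← hKb, hRdef, relIndex, subgroupOf,
      comap_map_eq_self_of_injective Kb.subtype_injective, ha]
  have h2 : L₀.relIndex L = p ^ b := by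
    rw [hL₀, relIndex, subgroupOf, comap_map_eq_self_of_injective L.subtype_injective, hb]
  have h3 : L₀.relIndex K₁ = p ^ (b + a) := by
    rw [← relIndex_mul_relIndex L₀ L K₁ hL₀L hLK, h1, h2, pow_add]
  -- the series
  have hu1 : L₀ ≤ PSolv.useries p G 1 := by
    rw [PLength.useries_one]
    exact Cores.le_pPrimeCore_of_not_dvd inferInstance hL₀p
  have hu2 : K₁ ≤ PSolv.useries p G 2 := by
    have hd : (PSolv.useries p G 1).relIndex K₁ ∣ p ^ (b + a) :=
      h3 ▸ relIndex_dvd_of_le_left K₁ hu1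
    obtain ⟨i, -, hi⟩ := (Nat.dvd_prime_pow hp.1).mp hd
    exact PSolv.le_useries_succ_odd (n := 1) (by decide) hK₁n hi
  refine top_le_iff.mp (PSolv.le_useries_succ_even (n := 2) even_two inferInstance ?_)
  rw [relIndex_top_right]
  refine ((hp.1.coprime_iff_not_dvd).mpr fun hd => P.not_dvd_index (hd.trans ?_)).symm
  exact index_dvd_of_le (hPK₁.trans hu2)

/-- In a group of `p`-length one the principal block restricts irreducibly. -/
theorem restrict_of_pLengthLE {M : Ideal AlgInt} (hM : IsPModular p M) (P : Sylow p G)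
    (h : Cfsg.PLengthLE p 1 G) (χ : IrrCharacter G) (hχ : χ ∈ principalBlock M G) :
    IsIrrCharacter ↥(normalizer ((P : Subgroup G) : Set G))
      (fun n : ↥(normalizer ((P : Subgroup G) : Set G)) => (χ : G → ℂ) n) := by
  classical
  letI := Fintype.ofFinite G
  set N := normalizer ((P : Subgroup G) : Set G) with hN
  set O := Cfsg.pPrimeCore p G with hO
  set K₂ := PSolv.useries p G 2 with hK₂
  haveI : K₂.Normal := upperPSeries_normal p G 2
  have hu3 : PSolv.useries p G 3 = ⊤ := h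
  have hK₂idx : ¬ p ∣ K₂.index := by
    have h3 := PSolv.useries_relIndex_even (p := p) (G := G) (n := 2) even_two
    rw [hu3, relIndex_top_right] at h3
    exact (hp.1.coprime_iff_not_dvd).mp h3.symm
  have hPK : (P : Subgroup G) ≤ K₂ := by
    obtain ⟨k, hk⟩ := IsPGroup.iff_card.mp P.2
    intro x hx
    rw [← QuotientGroup.eq_one_iff, ← orderOf_eq_one_iff]
    refine Nat.eq_one_of_dvd_coprimes
      (Nat.Coprime.pow_left k ((hp.1.coprime_iff_not_dvd).mpr hK₂idx)) ?_ (orderOf_dvd_natCard _)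
    refine (orderOf_map_dvd (QuotientGroup.mk' K₂) x).trans ?_
    rw [← hk]
    exact Subgroup.orderOf_dvd_natCard _ hx
  obtain ⟨m, hm⟩ := PSolv.useries_relIndex_odd (p := p) (G := G) (n := 1) (by decide)
  rw [PLength.useries_one, ← hO] at hm
  have hOK : O ≤ K₂ := by
    rw [hO, ← PLength.useries_one, hK₂]; exact PSolv.useries_le_succ 1
  have hsup : O ⊔ (P : Subgroup G) = K₂ := by
    refine le_antisymm (sup_le hOK hPK) (relIndex_eq_one.mp ?_)
    have hd1 : (O ⊔ (P : Subgroup G)).relIndex K₂ ∣ p ^ m :=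
      hm ▸ relIndex_dvd_of_le_left K₂ le_sup_left
    have hd2 : (O ⊔ (P : Subgroup G)).relIndex K₂ ∣ (P : Subgroup G).index :=
      (relIndex_dvd_of_le_left K₂ le_sup_right).trans (Dvd.intro _ (relIndex_mul_index hPK))
    exact Nat.eq_one_of_dvd_coprimes (Nat.Coprime.pow_left _
      ((Nat.Prime.coprime_iff_not_dvd hp.out).mpr P.not_dvd_index)) hd1 hd2
  have hF := Sylow.normalizer_sup_eq_top' (p := p) (N := K₂) P hPK
  rw [← hsup] at hF
  have hNO : N ⊔ O = ⊤ := by
    refine top_le_iff.mp (hF ▸ sup_le le_sup_left (sup_le le_sup_right ?_))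
    exact (le_normalizer : (P : Subgroup G) ≤ N).trans le_sup_left
  have hker : ∀ n ∈ O, (χ : G → ℂ) n = (χ : G → ℂ) 1 := by
    refine Brauer.trivialOn_of_sameBlock hM O
      ((hp.1.coprime_iff_not_dvd).mp Cores.pPrimeCore_coprime.symm)
      (χ := ⟨_, Char.isIrrCharacter_const_one⟩) hχ fun _ _ => rfl
  obtain ⟨ψ, hψ, hψg⟩ := Char.irr_exists_descend χ.2 O hker
  have hsurj : Function.Surjective ((QuotientGroup.mk' O).comp N.subtype) := by
    intro x
    obtain ⟨g, rfl⟩ := QuotientGroup.mk'_surjective O x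
    have hg : g ∈ N ⊔ O := hNO ▸ mem_top g
    rw [mem_sup_of_normal_right] at hg
    obtain ⟨n, hn, o, ho, rfl⟩ := hg
    refine ⟨⟨n, hn⟩, ?_⟩
    have ho1 : QuotientGroup.mk' O o = 1 := (QuotientGroup.eq_one_iff o).mpr ho
    rw [MonoidHom.comp_apply, map_mul, ho1, mul_one]
    rfl
  have := Char.isIrrCharacter_comp hψ _ hsurj
  convert this using 1
  funext n
  exact hψg n

end Cfsg.Agent.BlkPLen
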