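import Cfsg.Agent.BlkChar.Gauss
import Cfsg.Agent.BlkChar.Knorr
import Cfsg.Agent.BlkChar.FormSplit
import Mathlib

/-!
# The real-vector criterion: weights from a faithful self-dual module
-/

set_option autoImplicit false
set_option linter.style.haveILetI false
set_option linter.unusedSectionVars false

open scoped ComplexConjugate Classical
open Finset Cfsg.Agent.Delta.Weil

namespace Cfsg.Agent.RealVec

universe u v

variable {p : ℕ} [Fact p.Prime] {M : Type v} [AddCommGroup M] [Module (ZMod p) M] [Fintype M]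
  {H : Type u} [Group H] [Fintype H] {ρ : Representation (ZMod p) H M}

/-- The restriction to an invariant subspace. -/
noncomputable def restr (ρ : Representation (ZMod p) H M) (W : Submodule (ZMod p) M)
    (hW : FormSplit.Inv ρ W) : Representation (ZMod p) H W where
  toFun g := (ρ g).restrict (fun x hx => hW g x hx)
  map_one' := LinearMap.ext fun x => Subtype.ext (by simp)
  map_mul' g h := LinearMap.ext fun x => Subtype.ext (by simp)

theorem restr_apply (W : Submodule (ZMod p) M) (hW : FormSplit.Inv ρ W) (g : H) (x : W) :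
    (restr ρ W hW g x : M) = ρ g (x : M) := rfl

/-- An invariant bilinear form with a given alternating part. -/
theorem exists_alt_eq (hpH : ¬ p ∣ Nat.card H) (A : LinearMap.BilinForm (ZMod p) M)
    (hA0 : ∀ x, A x x = 0) (hA : ∀ g : H, ∀ x y : M, A (ρ g x) (ρ g y) = A x y) :
    ∃ B : LinearMap.BilinForm (ZMod p) M, (∀ g : H, ∀ x y : M, B (ρ g x) (ρ g y) = B x y) ∧
      Delta.Weil.alt B = A := by
  have hH : (Nat.card H : ZMod p) ≠ 0 := fun h => hpH ((ZMod.natCast_eq_zero_iff _ _).mp h)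
  let b := Module.finBasis (ZMod p) M
  let B0 : LinearMap.BilinForm (ZMod p) M :=
    Matrix.toBilin b (fun i j => if i < j then A (b i) (b j) else 0)
  have hB0 : Delta.Weil.alt B0 = A := by
    refine LinearMap.ext_basis b b fun i j => ?_
    have e : ∀ i j, B0 (b i) (b j) = if i < j then A (b i) (b j) else 0 := fun i j => by
      have h1 := congrFun (congrFun (BilinForm.toMatrix_toBilin b
        (fun i j => if i < j then A (b i) (b j) else 0)) i) j
      rwa [BilinForm.toMatrix_apply] at h1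
    have hskew : A (b j) (b i) = -A (b i) (b j) := by
      have h2 := hA0 (b i + b j)
      simp only [map_add, LinearMap.add_apply, hA0, zero_add, add_zero] at h2
      exact eq_neg_of_add_eq_zero_left h2
    simp only [Delta.Weil.alt, LinearMap.sub_apply, LinearMap.BilinForm.flip_apply, LinearMap.flip_apply, e]
    rcases lt_trichotomy i j with h | rfl | h
    · rw [if_pos h, if_neg h.asymm, sub_zero]
    · simp [hA0]
    · rw [if_neg h.asymm, if_pos h, hskew, zero_sub, neg_neg]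
  refine ⟨(Nat.card H : ZMod p)⁻¹ • ∑ g : H, B0.compl₁₂ (ρ g) (ρ g), fun k x y => ?_, ?_⟩
  · simp only [LinearMap.smul_apply, LinearMap.sum_apply, LinearMap.compl₁₂_apply]
    congr 1
    refine Fintype.sum_equiv (Equiv.mulRight k) _ _ fun g => ?_
    simp [Equiv.mulRight, map_mul, Module.End.mul_apply]
  · refine LinearMap.ext fun x => LinearMap.ext fun y => ?_
    have h2 : ∀ g : H, B0 (ρ g x) (ρ g y) - B0 (ρ g y) (ρ g x) = A x y := fun g => by
      have h3 := congrFun (congrArg DFunLike.coe (LinearMap.congr_fun hB0 (ρ g x))) (ρ g y)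
      simp only [Delta.Weil.alt, LinearMap.sub_apply, LinearMap.BilinForm.flip_apply, LinearMap.flip_apply] at h3
      rw [h3, hA]
    simp only [Delta.Weil.alt, LinearMap.sub_apply, LinearMap.BilinForm.flip_apply, LinearMap.flip_apply, LinearMap.smul_apply,
      LinearMap.sum_apply, LinearMap.compl₁₂_apply, smul_eq_mul, ← mul_sub, ← Finset.sum_sub_distrib,
      h2, Finset.sum_const, Finset.card_univ, nsmul_eq_mul, ← Nat.card_eq_fintype_card]
    rw [inv_mul_cancel_left₀ hH]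

/-- A representation from an additive action. -/
noncomputable def mkRep (f : H → M → M) (hadd : ∀ c x y, f c (x + y) = f c x + f c y)
    (hone : ∀ x, f 1 x = x) (hmul : ∀ c d x, f (c * d) x = f c (f d x)) :
    Representation (ZMod p) H M where
  toFun c := (AddMonoidHom.mk' (f c) (hadd c)).toZModLinearMap p
  map_one' := LinearMap.ext hone
  map_mul' c d := LinearMap.ext (hmul c d)

theorem mkRep_apply (f : H → M → M) (hadd : ∀ c x y, f c (x + y) = f c x + f c y)
    (hone : ∀ x, f 1 x = x) (hmul : ∀ c d x, f (c * d) x = f c (f d x)) (c : H) (x : M) :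
    (mkRep f hadd hone hmul : Representation (ZMod p) H M) c x = f c x := rfl

/-- A bilinear form from a bi-additive map. -/
noncomputable def mkForm (β : M → M → ZMod p) (hl : ∀ x x' y, β (x + x') y = β x y + β x' y)
    (hr : ∀ x y y', β x (y + y') = β x y + β x y') : LinearMap.BilinForm (ZMod p) M :=
  (AddMonoidHom.mk' (fun x => (AddMonoidHom.mk' (β x) (hr x)).toZModLinearMap p)
    (fun x x' => LinearMap.ext (hl x x'))).toZModLinearMap p

theorem mkForm_apply (β : M → M → ZMod p) (hl : ∀ x x' y, β (x + x') y = β x y + β x' y)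
    (hr : ∀ x y y', β x (y + y') = β x y + β x y') (x y : M) : mkForm β hl hr x y = β x y := rfl

variable {Mi : Ideal AlgInt} {n : ℕ} [NeZero n]

theorem isDelta_one (hM : IsPModular p Mi) (h : ∀ c : H, ∀ x : M, ρ c x = x) :
    Delta.IsDelta ρ Mi n (fun _ _ => 1) := by
  have hbot : ∀ c : H, Delta.comSub ρ c = ⊥ := fun c => (Submodule.eq_bot_iff _).mpr fun x hx => by
    obtain ⟨y, rfl⟩ := Delta.exists_of_mem_comSub hx
    rw [h, sub_self]
  exact ⟨fun _ => one_mem _, fun _ _ => isIntegral_one, fun a c => by simp [hbot],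
    fun a c hc => absurd (hbot c) hc, fun _ => rfl,
    1, one_ne_zero, fun c => by simp only [Nat.cast_one, one_mul]; exact one_mem _⟩

/-- The generalized character attached to a faithful module with a non-degenerate form. -/
theorem exists_delta (hfaith : ∀ c : H, (∀ x, ρ c x = x) → c = 1)
    (B : LinearMap.BilinForm (ZMod p) M) (hB : ∀ g : H, ∀ x y : M, B (ρ g x) (ρ g y) = B x y)
    (hnd : ∀ x, (∀ y, B x y = 0) → x = 0) (hpH : ¬ p ∣ Nat.card H) (hM : IsPModular p Mi)
    (hn : Nat.card H ∣ n) (hpn : p ∣ n) :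
    ∃ (δ : (ZMod n)ˣ → H → ℂ) (w : H → ℕ), (∀ c, w c ≤ Nat.card (Delta.comSub ρ c)) ∧
      (∀ a, δ a ∈ IntCF.intCF H) ∧ (∀ a c, IsIntegral ℤ (δ a c)) ∧
      (∀ a c, ‖δ a c‖ ^ 2 = (w c : ℝ)) ∧ (∀ a c, c ≠ 1 → MemLocalIdeal Mi (δ a c)) ∧
      (∀ a, δ a 1 = 1) ∧ ∃ m : ℕ, m ≠ 0 ∧ ∀ c : H,
        (fun a : (ZMod n)ˣ => (m : ℂ) * δ a (c ^ (a : ZMod n).val)) ∈ GalAvg.cycFun n := by
  haveI := Block.isPrime_of_isPModular hM
  obtain ⟨U, W, hdis, hsup, hU, hW, ⟨A, hA0, hAinv, hAnd⟩, ⟨S, hSsym, hSinv, hSnd⟩, h2⟩ :=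
    FormSplit.good_of_nd (F := ZMod p) (fun h => hpH ((ZMod.natCast_eq_zero_iff _ _).mp h)) hB ⊤
      (fun _ _ _ => Submodule.mem_top)
      (fun x _ h => hnd x fun y => h y Submodule.mem_top)
  let AU : LinearMap.BilinForm (ZMod p) U := A.compl₁₂ U.subtype U.subtype
  obtain ⟨BU, hBU, hBUA⟩ := exists_alt_eq (ρ := restr ρ U hU) hpH AU (fun x => hA0 x)
    (fun g x y => hAinv g x x.2 y y.2)
  obtain ⟨z, hz⟩ : ∃ z : ℂ, IsPrimitiveRoot z p :=
    ⟨_, Complex.isPrimitiveRoot_exp p (Fact.out : p.Prime).ne_zero⟩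
  obtain ⟨δ₁, h₁⟩ := Delta.Weil.exists_isDelta (ρ := restr ρ U hU) (B := BU) hBU
    (fun x hx => Subtype.ext (hAnd x x.2 fun y hy => by
      have := hx ⟨y, hy⟩
      rwa [hBUA] at this)) hz hpH hM n hn
  obtain ⟨δ₂, h₂⟩ : ∃ δ : (ZMod n)ˣ → H → ℂ, Delta.IsDelta (restr ρ W hW) Mi n δ := by
    by_cases hp2 : p = 2
    · refine ⟨_, isDelta_one hM fun c x => Subtype.ext (h2 ?_ c x x.2)⟩
      show ((2 : ℕ) : ZMod p) = 0
      rw [ZMod.natCast_eq_zero_iff, hp2]
    · exact Delta.Gauss.exists_isDelta (S := S.compl₁₂ W.subtype W.subtype)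
        (fun g x y => hSinv g x x.2 y y.2) (fun x y => hSsym x y)
        (fun x hx => Subtype.ext (hSnd x x.2 fun y hy => hx ⟨y, hy⟩)) hp2 hpH hM n hn hpn
  refine ⟨fun a => δ₁ a * δ₂ a, fun c => Nat.card (Delta.comSub (restr ρ U hU) c) *
    Nat.card (Delta.comSub (restr ρ W hW) c), fun c => ?_, fun a => mul_mem (h₁.mem a) (h₂.mem a),
    fun a c => (h₁.isIntegral a c).mul (h₂.isIntegral a c), fun a c => ?_, fun a c hc => ?_,
    fun a => by simp only [Pi.mul_apply]; rw [h₁.one, h₂.one, mul_one], ?_⟩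
  · dsimp only
    rw [← Nat.card_prod]
    refine Nat.card_le_card_of_injective (fun st => ⟨((st.1 : U) : M) + ((st.2 : W) : M), ?_⟩) ?_
    · obtain ⟨y, hy⟩ := Delta.exists_of_mem_comSub st.1.2
      obtain ⟨y', hy'⟩ := Delta.exists_of_mem_comSub st.2.2
      rw [hy, hy', Submodule.coe_sub, Submodule.coe_sub, restr_apply, restr_apply]
      have : (y : M) - ρ c y + ((y' : M) - ρ c y') = ((y : M) + y') - ρ c ((y : M) + y') := by
        rw [map_add]; abel
      rw [this]
      exact Delta.sub_mem_comSub ρ c _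
    · rintro ⟨⟨s, hs⟩, ⟨t, ht⟩⟩ ⟨⟨s', hs'⟩, ⟨t', ht'⟩⟩ h
      have h1 : (s : M) + t = s' + t' := congrArg Subtype.val h
      have h3 : (s : M) - s' = t' - t := sub_eq_sub_iff_add_eq_add.mpr (h1.trans (add_comm _ _))
      have h4 : (s : M) - s' = 0 :=
        Submodule.disjoint_def.mp hdis _ (U.sub_mem s.2 s'.2) (h3 ▸ W.sub_mem t'.2 t.2)
      have h5 : (t' : M) - t = 0 := h3 ▸ h4
      simp only [sub_eq_zero] at h4 h5
      simp [Subtype.ext_iff, h4, h5]
  · simp only [Pi.mul_apply]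
    rw [norm_mul, mul_pow, h₁.norm, h₂.norm, Nat.cast_mul]
  · simp only [Pi.mul_apply]
    by_cases hc1 : Delta.comSub (restr ρ U hU) c = ⊥
    · refine Block.memLocalIdeal_mul_left (Block.memLocalRing_of_isIntegral (h₁.isIntegral a c))
        (h₂.small a c fun hc2 => hc (hfaith c fun x => ?_))
      have hfix : ∀ (Y : Submodule (ZMod p) M) (hY : FormSplit.Inv ρ Y),
          Delta.comSub (restr ρ Y hY) c = ⊥ → ∀ y ∈ Y, ρ c y = y := fun Y hY hb y hy => by
        have h3 := (Submodule.eq_bot_iff _).mp hb _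
          (Delta.sub_mem_comSub (restr ρ Y hY) c ⟨y, hy⟩)
        exact (sub_eq_zero.mp (congrArg Subtype.val h3)).symm
      obtain ⟨x₁, hx₁, x₂, hx₂, rfl⟩ := Submodule.mem_sup.mp (hsup.ge (Submodule.mem_top (x := x)))
      rw [map_add, hfix U hU hc1 x₁ hx₁, hfix W hW hc2 x₂ hx₂]
    · exact Block.memLocalIdeal_mul_right (h₁.small a c hc1)
        (Block.memLocalRing_of_isIntegral (h₂.isIntegral a c))
  · obtain ⟨m₁, hm₁, hf₁⟩ := h₁.family
    obtain ⟨m₂, hm₂, hf₂⟩ := h₂.family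
    refine ⟨m₁ * m₂, mul_ne_zero hm₁ hm₂, fun c => ?_⟩
    convert mul_mem (hf₁ c) (hf₂ c) using 1
    funext a
    simp only [Pi.mul_apply, Nat.cast_mul]
    ring

variable {X : Type u} [Group X] [Finite X]

/-- The lower bound for one character. -/
theorem lower_bound (hpH : ¬ p ∣ Nat.card H) (hM : IsPModular p Mi) (hn : Nat.card H ∣ n)
    {δ : (ZMod n)ˣ → H → ℂ} {w : H → ℕ}
    (hmem : ∀ a, δ a ∈ IntCF.intCF H)
    (hnorm : ∀ a c, ‖δ a c‖ ^ 2 = (w c : ℝ)) (hint : ∀ a c, IsIntegral ℤ (δ a c))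
    (hsmall : ∀ a c, c ≠ 1 → MemLocalIdeal Mi (δ a c)) (hone : ∀ a, δ a 1 = 1)
    {m : ℕ} (hm : m ≠ 0)
    (hfam : ∀ c : H, (fun a : (ZMod n)ˣ => (m : ℂ) * δ a (c ^ (a : ZMod n).val)) ∈ GalAvg.cycFun n)
    {χ : X → ℂ} (hχ : IsCharacter X χ) (ι : H →* X) {v : X} (hcomm : ∀ c, Commute v (ι c))
    (hvn : ∀ c, (v * ι c) ^ n = 1)
    (z : IrrCharacter H → (ZMod n)ˣ → ℂ) (hz : ∀ φ, z φ ∈ GalAvg.cycFun n)
    (hzχ : ∀ (a : (ZMod n)ˣ) (c : H),
      χ (v ^ (a : ZMod n).val * ι c) = ∑ φ : IrrCharacter H, z φ a * (φ : H → ℂ) c)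
    (hnz : ∀ a : (ZMod n)ˣ, ¬ MemLocalIdeal Mi (χ (v ^ (a : ZMod n).val))) :
    (Nat.card H : ℝ) * Nat.card (ConjClasses H) * Fintype.card (ZMod n)ˣ ≤
      ∑ a : (ZMod n)ˣ, ∑ c : H, (w c : ℝ) * ‖χ (v ^ (a : ZMod n).val * ι c)‖ ^ 2 := by
  haveI := Block.isPrime_of_isPModular hM
  set f : (ZMod n)ˣ → H → ℂ := fun a c => δ a c * χ (v ^ (a : ZMod n).val * ι c) with hf
  set y : (ZMod n)ˣ → IrrCharacter H → ℂ := fun a φ => classInner (f a) (φ : H → ℂ) with hy
  have hfmem : ∀ a, f a ∈ IntCF.intCF H := fun a => by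
    have h1 : f a = δ a * fun c => ∑ φ : IrrCharacter H, z φ a * (φ : H → ℂ) c := by
      funext c; simp only [hf, Pi.mul_apply, hzχ]
    rw [h1]
    exact mul_mem (hmem a) (IntCF.sum_smul_irr_mem _ fun φ => GalAvg.isIntegral (hz φ) a)
  have hyint : ∀ a φ, IsIntegral ℤ (y a φ) := fun a φ => (hfmem a).2 φ
  have hkey : ∀ φ : IrrCharacter H, (Fintype.card (ZMod n)ˣ : ℝ) ≤ ∑ a, ‖y a φ‖ ^ 2 := by
    intro φ
    set K := m * Nat.card H with hK
    have hK0 : 0 < K := Nat.mul_pos (Nat.pos_of_ne_zero hm) Nat.card_pos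
    have hx : (fun a => (K : ℂ) * y a φ) ∈ GalAvg.cycFun n := by
      have h1 : (fun a => (K : ℂ) * y a φ) = ∑ c : H, (fun a : (ZMod n)ˣ =>
          ((m : ℂ) * δ a (c ^ (a : ZMod n).val)) * (χ ((v * ι c) ^ (a : ZMod n).val) *
            conj ((φ : H → ℂ) (c ^ (a : ZMod n).val)))) := by
        funext a
        rw [Finset.sum_apply, hK, Nat.cast_mul, mul_assoc, hy]
        simp only
        rw [← Char.sum_mul_conj_eq_card_mul_classInner, Finset.mul_sum]
        have hcop : (Nat.card H).Coprime (a : ZMod n).val :=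
          ((ZMod.val_coe_unit_coprime a).coprime_dvd_right hn).symm
        refine (Fintype.sum_equiv (powCoprime hcop) _ _ fun c => ?_).symm
        simp only [hf, powCoprime_apply]
        rw [(hcomm c).mul_pow, map_pow]
        ring
      rw [h1]
      refine sum_mem fun c _ => ?_
      refine mul_mem (hfam c) (mul_mem (GalAvg.isCharacter_pow_mem hχ _ (hvn c)) ?_)
      obtain ⟨k, hk⟩ := hn
      exact GalAvg.conj_mem (GalAvg.isCharacter_pow_mem (Char.isCharacter_of_irr φ.2) c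
        (by rw [hk, pow_mul, pow_card_eq_one', one_pow]))
    have hne : ∀ a, y a φ ≠ 0 := fun a h => by
      have h1 := Char.sum_mul_conj_eq_card_mul_classInner (f a) (φ : H → ℂ)
      rw [show classInner (f a) (φ : H → ℂ) = y a φ from rfl, h, mul_zero,
        ← Finset.add_sum_erase _ _ (Finset.mem_univ (1 : H))] at h1
      have h3 : MemLocalIdeal Mi (f a 1 * conj ((φ : H → ℂ) 1)) := by
        rw [eq_neg_of_add_eq_zero_left h1]
        refine Block.memLocalIdeal_neg (Block.memLocalIdeal_sum _ _ fun c hc => ?_)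
        refine Block.memLocalIdeal_mul_right (Block.memLocalIdeal_mul_right
          (hsmall a c (Finset.ne_of_mem_erase hc)) (Block.memLocalRing_of_isIntegral ?_))
          (Block.memLocalRing_of_isIntegral ?_)
        · exact Char.isCharacter_isIntegral hχ _
        · rw [← Char.irr_inv φ.2]
          exact Char.isCharacter_isIntegral (Char.isCharacter_of_irr φ.2) _
      obtain ⟨d, hd0, hd, hdvd⟩ := Char.irr_degree_dvd_card φ.2
      have hpd : ¬ p ∣ d := fun h' => hpH (h'.trans hdvd)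
      refine hnz a ?_
      have h4 := Block.memLocalIdeal_mul_right h3 (Block.memLocalRing_natCast_inv hM hpd)
      rw [hf] at h4
      simp only [hd, Complex.conj_natCast, map_one, mul_one, hone, one_mul] at h4
      rwa [mul_assoc, mul_inv_cancel₀ (Nat.cast_ne_zero.mpr fun h' : d = 0 =>
        hpd (h' ▸ dvd_zero p)), mul_one] at h4
    have hx2 := mul_mem hx (GalAvg.conj_mem hx)
    have hK' : (K : ℂ) ≠ 0 := Nat.cast_ne_zero.mpr hK0.ne'
    have h5 := GalAvg.mul_card_le_sum_norm hx2 (K * K) (Nat.mul_pos hK0 hK0) (fun a => ?_)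
      ⟨1, mul_ne_zero (mul_ne_zero hK' (hne 1))
        (by simpa using mul_ne_zero hK' (hne 1))⟩
    · have h6 : ∀ a, ‖((fun a => (K : ℂ) * y a φ) * fun a => conj ((K : ℂ) * y a φ)) a‖ =
          ((K * K : ℕ) : ℝ) * ‖y a φ‖ ^ 2 := fun a => by
        rw [Pi.mul_apply, norm_mul, RCLike.norm_conj, norm_mul, Complex.norm_natCast]
        push_cast; ring
      simp only [h6, ← Finset.mul_sum] at h5
      exact le_of_mul_le_mul_left h5 (Nat.cast_pos.mpr (Nat.mul_pos hK0 hK0))
    · have : ((fun a => (K : ℂ) * y a φ) * fun a => conj ((K : ℂ) * y a φ)) a / ((K * K : ℕ) : ℂ) =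
          y a φ * conj (y a φ) := by
        rw [Pi.mul_apply, map_mul, Complex.conj_natCast]
        push_cast
        field_simp
      rw [this]
      exact (hyint a φ).mul ((hyint a φ).map (starRingEnd ℂ).toIntAlgHom)
  have hpar : ∀ a : (ZMod n)ˣ, ∑ c : H, (w c : ℝ) * ‖χ (v ^ (a : ZMod n).val * ι c)‖ ^ 2 =
      (Nat.card H : ℝ) * ∑ φ, ‖y a φ‖ ^ 2 := fun a => by
    have h1 := Char.sum_mul_conj_eq_card_mul_classInner (f a) (f a)
    rw [Char.classInner_eq_sum_mul_conj (hfmem a).1] at h1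
    simp only [Complex.mul_conj'] at h1
    have h2 : ∑ c, ‖f a c‖ ^ 2 = (Nat.card H : ℝ) * ∑ φ, ‖y a φ‖ ^ 2 := by exact_mod_cast h1
    rw [← h2]
    refine Finset.sum_congr rfl fun c _ => ?_
    rw [hf, norm_mul, mul_pow, hnorm]
  rw [Finset.sum_congr rfl fun a _ => hpar a, ← Finset.mul_sum, Finset.sum_comm, mul_assoc]
  refine mul_le_mul_of_nonneg_left ?_ (Nat.cast_nonneg _)
  rw [← Char.card_irr_eq_card_conjClasses, Nat.card_eq_fintype_card]
  calc (Fintype.card (IrrCharacter H) : ℝ) * Fintype.card (ZMod n)ˣ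
      = ∑ _φ : IrrCharacter H, (Fintype.card (ZMod n)ˣ : ℝ) := by simp
    _ ≤ _ := Finset.sum_le_sum fun φ _ => hkey φ

/-- The criterion, for an abstract module mapped onto a subgroup of `V`. -/
theorem main {p : ℕ} [Fact p.Prime] {X : Type u} [Group X] [Finite X] {M : Type v} [AddCommGroup M]
    [Module (ZMod p) M] [Finite M] (V : Subgroup X) [V.Normal] (hVp : IsPGroup p V)
    (hidx : ¬ p ∣ V.index) (habV : ∀ a ∈ V, ∀ b ∈ V, a * b = b * a) (hpn : p ∣ Nat.card X)
    (G : Subgroup X) (hGV : Subgroup.IsComplement' V G) {v : X} (hv : v ∈ V)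
    {U : Subgroup X} (hUV : U ≤ V) (ι : M → X) (hι : Function.Injective ι)
    (hadd : ∀ x y, ι (x + y) = ι x * ι y) (hrange : ∀ u, u ∈ U ↔ ∃ x, ι x = u)
    (hinv : ∀ c ∈ G ⊓ Subgroup.centralizer ({v} : Set X), ∀ x, ∃ y, ι y = c * ι x * c⁻¹)
    (hfaith : ∀ c ∈ G ⊓ Subgroup.centralizer ({v} : Set X), (∀ x, c * ι x * c⁻¹ = ι x) → c = 1)
    (β : M → M → ZMod p) (hl : ∀ x x' y, β (x + x') y = β x y + β x' y)
    (hr : ∀ x y y', β x (y + y') = β x y + β x y')
    (hβ : ∀ c ∈ G ⊓ Subgroup.centralizer ({v} : Set X), ∀ x y x' y',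
      ι x' = c * ι x * c⁻¹ → ι y' = c * ι y * c⁻¹ → β x' y' = β x y)
    (hnd : ∀ x, (∀ y, β x y = 0) → x = 0) : Nat.card (ConjClasses X) ≤ Nat.card V := by
  letI := Fintype.ofFinite X
  letI := Fintype.ofFinite M
  haveI : NeZero (Nat.card X) := ⟨Nat.card_pos.ne'⟩
  set H := G ⊓ Subgroup.centralizer ({v} : Set X) with hH
  letI : Fintype ↥H := Fintype.ofFinite _
  have hpH : ¬ p ∣ Nat.card H := fun h => hidx (h.trans (by
    rw [hGV.symm.index_eq_card]; exact Subgroup.card_dvd_of_le inf_le_left))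
  choose act hact using fun (c : ↥H) (x : M) => hinv c c.2 x
  let ρ : Representation (ZMod p) ↥H M := mkRep act
    (fun c x y => hι (by simp only [hact, hadd]; group))
    (fun x => hι (by simp [hact]))
    (fun c d x => hι (by simp only [hact, Subgroup.coe_mul]; group))
  have hρ : ∀ (c : ↥H) (x : M), ι (ρ c x) = (c : X) * ι x * (c : X)⁻¹ := hact
  obtain ⟨Mi, hM⟩ := Kgv.exists_pModular (p := p) Fact.out
  have hHn : Nat.card H ∣ Nat.card X := Subgroup.card_subgroup_dvd_card H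
  obtain ⟨δ, w, hw, hmem, hint, hnorm, hsmall, hone, m, hm, hfam⟩ :=
    exists_delta (ρ := ρ) (fun c hc => Subtype.ext (hfaith c c.2 fun x => by rw [← hρ, hc]))
      (mkForm β hl hr) (fun c x y => hβ c c.2 x y _ _ (hρ c x) (hρ c y)) hnd hpH hM hHn hpn
  refine Kgv.criterion V hVp hidx habV G hGV hv H hH (fun c => (w c : ℝ))
    (fun c => Nat.cast_nonneg _) (fun c => ?_) fun χ => ?_
  · set C := Subgroup.centralizer ({(c : X)} : Set X) with hC
    have hcard : Nat.card M = Nat.card U := Nat.card_eq_of_bijective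
      (fun x => (⟨ι x, (hrange _).mpr ⟨x, rfl⟩⟩ : ↥U))
      ⟨fun x y h => hι (congrArg Subtype.val h),
        fun u => by obtain ⟨x, hx⟩ := (hrange u).mp u.2; exact ⟨x, Subtype.ext hx⟩⟩
    have hfix : ∀ x, x ∈ Delta.fixSub ρ c ↔ ι x ∈ C := fun x => by
      rw [Delta.mem_fixSub, ← hι.eq_iff, hρ, mul_inv_eq_iff_eq_mul,
        Subgroup.mem_centralizer_singleton_iff]
      exact eq_comm
    have hUC : Nat.card (Delta.fixSub ρ c) = Nat.card ↥(U ⊓ C) := Nat.card_eq_of_bijective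
      (fun x => (⟨ι x.1, (hrange _).mpr ⟨x.1, rfl⟩, (hfix _).mp x.2⟩ : ↥(U ⊓ C)))
      ⟨fun x y h => Subtype.ext (hι (congrArg Subtype.val h)),
        fun u => by
          obtain ⟨x, hx⟩ := (hrange u).mp u.2.1
          exact ⟨⟨x, (hfix x).mpr (hx ▸ u.2.2)⟩, Subtype.ext hx⟩⟩
    have h1 := Delta.card_mul_card ρ c
    rw [hUC, hcard] at h1
    have key : ∀ K : Subgroup X, Nat.card ↥(K ⊓ C) * C.relIndex K = Nat.card K := fun K => by
      rw [Subgroup.relIndex, ← Nat.card_congr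
          (Subgroup.subgroupOfEquivOfLe (inf_le_left : K ⊓ C ≤ K)).toEquiv,
        Subgroup.inf_subgroupOf_left, Subgroup.card_mul_index]
    have h4 : Nat.card (Delta.comSub ρ c) = C.relIndex U :=
      mul_left_cancel₀ Nat.card_pos.ne' (h1.trans (key U).symm)
    have h5 : C.relIndex U ≤ C.relIndex V :=
      Subgroup.relIndex_le_of_le_right hUV Subgroup.index_ne_zero_of_finite
    have h6 : w c * Nat.card ↥(V ⊓ C) ≤ Nat.card V :=
      calc w c * Nat.card ↥(V ⊓ C) ≤ C.relIndex V * Nat.card ↥(V ⊓ C) :=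
            Nat.mul_le_mul_right _ ((hw c).trans (h4.le.trans h5))
        _ = _ := by rw [mul_comm]; exact key V
    exact_mod_cast h6
  · have hcomm : ∀ c : ↥H, Commute v (c : X) := fun c =>
      (Subgroup.mem_centralizer_singleton_iff.mp c.2.2).symm
    obtain ⟨z, hz, hzχ⟩ := Kgv.exists_family (n := Nat.card X)
      (Char.isCharacter_of_irr χ.2) (v := v) pow_card_eq_one' H
      (fun c hc => (Subgroup.mem_centralizer_singleton_iff.mp hc.2).symm)
    exact lower_bound hpH hM hHn hmem hnorm hint hsmall hone hm hfam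
      (Char.isCharacter_of_irr χ.2) H.subtype hcomm (fun _ => pow_card_eq_one') z hz hzχ
      fun a => Kgv.not_memLocalIdeal_of_mem hM V hVp hidx habV G hGV χ (V.pow_mem hv _)

end Cfsg.Agent.RealVec
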