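import Cfsg.Agent.BrauerPairs.Bridge
import Cfsg.Agent.BlockVal.PElement
import Cfsg.Agent.Block.Degrees
import Cfsg.Agent.Char.DefectZero
import Cfsg.Agent.Char.Linear
import Cfsg.Agent.Char.Kernel
import Cfsg.Agent.KnownChar.Split
import Mathlib

/-!
# Groups with a single block

A criterion through the centralizers of elements of order `p`, and a counting bound excluding
characters of defect zero.
-/

set_option autoImplicit false
set_option linter.style.haveILetI false

open scoped ComplexConjugate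
open Finset

namespace Cfsg.Agent.SingleBlock

universe u

variable {p : ℕ} [hp : Fact p.Prime] {M : Ideal AlgInt}

/-- A normal self-centralizing `p`-subgroup leaves a single block. -/
theorem sameBlock_of_normal {C : Type u} [Group C] [Finite C] (hM : IsPModular p M) (N : Subgroup C)
    [N.Normal] (hN : IsPGroup p N) (hc : Subgroup.centralizer (N : Set C) ≤ N)
    (χ ψ : IrrCharacter C) : SameBlock M (χ : C → ℂ) (ψ : C → ℂ) := by
  classical
  haveI := Fintype.ofFinite C
  haveI : M.IsPrime := hM.2.1.isPrime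
  intro g
  by_cases hg : g ∈ Subgroup.centralizer (N : Set C)
  · have key : ∀ φ : IrrCharacter C, MemLocalIdeal M
        (centralChar (φ : C → ℂ) g - ((Subgroup.centralizer ({g} : Set C)).index : ℂ)) :=
      fun φ => BlockVal.centralChar_pElement hM N hN φ (hc hg)
    simpa using Block.memLocalIdeal_sub (key χ) (key ψ)
  · exact Block.memLocalIdeal_sub
      (Block.centralChar_mem_of_class_avoids_centralizer hM hN χ.2 hg)
      (Block.centralChar_mem_of_class_avoids_centralizer hM hN ψ.2 hg)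

section Criterion

open MonoidAlgebra Cfsg.Agent.BrauerPairs

variable {G : Type u} [Group G] [Finite G]

/-- If the centralizer of every element of order `p` has a self-centralizing normal `p`-subgroup
and there is no character of defect zero, then there is a single block. -/
theorem sameBlock_of_local (hM : IsPModular p M)
    (hloc : ∀ z : G, orderOf z = p → ∃ N : Subgroup G,
      N ≤ Subgroup.centralizer {z} ∧ IsPGroup p N ∧
      (∀ c ∈ Subgroup.centralizer {z}, ∀ x ∈ N, c * x * c⁻¹ ∈ N) ∧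
      Subgroup.centralizer {z} ⊓ Subgroup.centralizer (N : Set G) ≤ N)
    (hdz : ∀ χ : IrrCharacter G, (charDegree (χ : G → ℂ)).factorization p <
      (Nat.card G).factorization p)
    (χ ψ : IrrCharacter G) : SameBlock M (χ : G → ℂ) (ψ : G → ℂ) := by
  classical
  haveI := Fintype.ofFinite G
  haveI := Block.isPrime_of_isPModular hM
  haveI := Block.charP_resF hM
  suffices key : ∀ B : Blk M G, B = princBlk M G by
    have h1 : blockOf M (χ : G → ℂ) = (princBlk M G).1 :=
      congrArg Subtype.val (key ⟨_, χ, rfl⟩)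
    have h2 : blockOf M (ψ : G → ℂ) = (princBlk M G).1 :=
      congrArg Subtype.val (key ⟨_, ψ, rfl⟩)
    exact Block.pBlock_sameBlock (princBlk M G).2 (h1 ▸ Block.mem_blockOf_self χ)
      (h2 ▸ Block.mem_blockOf_self ψ)
  intro B
  obtain ⟨D, hD⟩ := Block.exists_isDefectGroup (p := p) B.2
  obtain ⟨hDp, -, hne⟩ := (BrauerPairs.isDefectGroup_iff (p := p) B D).1 hD
  have hcard := Block.card_isDefectGroup hM B.2 hD
  rcases eq_or_ne D ⊥ with rfl | hD0
  · rw [Subgroup.card_bot] at hcard
    have h0 : blockDefect p B.1 = 0 := by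
      by_contra h
      exact (Nat.one_lt_pow h hp.out.one_lt).ne hcard
    obtain ⟨θ, hθ, hmin⟩ := Nat.sInf_mem ((Block.pBlock_nonempty B.2).image
      fun χ : IrrCharacter G => (charDegree (χ : G → ℂ)).factorization p)
    rw [blockDefect, ← hmin] at h0
    have := hdz θ
    simp only at h0
    omega
  obtain ⟨n, hn⟩ := IsPGroup.iff_card.mp hDp
  have hn0 : n ≠ 0 := fun h => hD0 (Subgroup.card_eq_one.mp (by rw [hn, h, pow_zero]))
  obtain ⟨z₀, hz₀⟩ := exists_prime_orderOf_dvd_card' p (G := D)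
    (by rw [hn]; exact dvd_pow_self p hn0)
  set z : G := (z₀ : G)
  have hz : orderOf z = p := by rw [Subgroup.orderOf_coe, hz₀]
  set P := Subgroup.zpowers z with hPdef
  have hPp : IsPGroup p P := hDp.to_le (Subgroup.zpowers_le.2 z₀.2)
  have hneP : trunc P ((blockSysTop M).idem B) ≠ 0 := fun h0 => hne (by
    rw [← trunc_trunc (Subgroup.zpowers_le.2 z₀.2 : P ≤ D), h0, map_zero])
  have hfix : Fixed P ((blockSysTop M).idem B) := ((blockSysTop M).central_idem B).fixed.mono le_top
  obtain ⟨f, hf⟩ := (pairSys M G P).exists_lam_one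
    (centralIn_trunc_of_top ((blockSysTop M).central_idem B) P)
    (by rw [← trunc_mul hPp hfix hfix, (blockSysTop M).idem_mul_self]) hneP
  have hPB : PairOf (blockSysTop M) (pairSys M G) p B ⟨P, f⟩ := ⟨hPp, hf⟩
  have hP0 : PairOf (blockSysTop M) (pairSys M G) p (princBlk M G) ⟨P, princBlk M _⟩ :=
    pairOf_principal (fun _ ha => lam_principal_top ha) (fun Q => princBlk M _)
      (fun Q _ ha => lam_principal_sub ha) hPp
  have hcen : Subgroup.centralizer (P : Set G) = Subgroup.centralizer {z} := by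
    rw [hPdef, Subgroup.zpowers_eq_closure, Subgroup.centralizer_closure]
  obtain ⟨N, hNle, hNp, hNn, hNc⟩ := hloc z hz
  rw [← hcen] at hNle hNn hNc
  set N' := N.subgroupOf (Subgroup.centralizer (P : Set G))
  haveI : N'.Normal := ⟨fun x hx c => hNn c c.2 x hx⟩
  have hN'p : IsPGroup p N' := hNp.of_equiv (Subgroup.subgroupOfEquivOfLe hNle).symm
  have hN'c : Subgroup.centralizer (N' : Set (Subgroup.centralizer (P : Set G))) ≤ N' :=
    fun c hc => hNc ⟨c.2, Subgroup.mem_centralizer_iff.2 fun x hx =>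
      congrArg Subtype.val (Subgroup.mem_centralizer_iff.1 hc ⟨x, hNle hx⟩ hx)⟩
  have hfe : f = princBlk M _ := Subtype.ext (Block.pBlock_eq_of_mem f.2
    (princBlk M _).2 (blkChar_mem M f) (by
      rw [Block.pBlock_eq (princBlk M _).2 (blkChar_mem M (princBlk M _))]
      exact sameBlock_of_normal hM N' hN'p hN'c _ _))
  subst hfe
  exact (existsUnique_pairOf (p := p) (blockSysTop M) (pairSys M G) (a := ⟨P, princBlk M _⟩)
    hPp).unique hPB hP0

end Criterion

/-- Squares with a prescribed sum. -/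
theorem sq_sum_bound {ι : Type*} (s : Finset ι) (b : ι → ℕ) (hs : 0 < s.card) :
    (∑ i ∈ s, b i) ^ 2 + ((∑ i ∈ s, b i) % s.card) * (s.card - (∑ i ∈ s, b i) % s.card) ≤
      s.card * ∑ i ∈ s, b i ^ 2 := by
  set q := s.card
  set S := ∑ i ∈ s, b i with hS
  set d := S / q
  set r := S % q
  have hdec : r + q * d = S := Nat.mod_add_div S q
  have hr : r < q := Nat.mod_lt _ hs
  have key : ∀ i ∈ s, ((2 * d + 1) * b i : ℤ) ≤ (b i : ℤ) ^ 2 + d * (d + 1) := by
    intro i _
    rcases le_or_gt ((b i : ℤ)) d with h | h <;> nlinarith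
  have h2 := Finset.sum_le_sum key
  rw [Finset.sum_add_distrib, Finset.sum_const, nsmul_eq_mul, ← Finset.mul_sum] at h2
  zify [hr.le]
  rw [show ((∑ i ∈ s, (b i : ℤ)) = (S : ℤ)) by rw [hS]; push_cast; rfl] at h2
  have h3 : (r : ℤ) + q * d = S := by exact_mod_cast hdec
  push_cast [hS] at h3 ⊢
  nlinarith

section Norm

variable {G : Type u} [Group G] [Finite G] {χ : G → ℂ}

/-- The squares of the values on a subgroup of prime order `q` centralized by a `p`-subgroup. -/
theorem normSq_sum_ge [Fintype G] [DecidableEq G] (hχ : IsIrrCharacter G χ)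
    (hvan : ∀ x, p ∣ orderOf x → χ x = 0) (H T : Subgroup G) [Fintype H] {q f n : ℕ}
    (hq : q.Prime) (hqp : q ≠ p) (hH : Nat.card H = q) (hT : IsPGroup p T) (hTf : Nat.card T = f)
    (hcomm : ∀ h ∈ H, ∀ t ∈ T, Commute h t) (hn : χ 1 = n) :
    f ∣ n ∧ ((f ^ 2 * ((n / f) % q * (q - (n / f) % q)) : ℕ) : ℝ) ≤
      ∑ h ∈ (univ : Finset H).erase 1, Complex.normSq (χ h) := by
  classical
  haveI := Fintype.ofFinite T
  let φ : H × T →* G := MonoidHom.noncommCoprod H.subtype T.subtype fun h t => hcomm h h.2 t t.2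
  have hχc := Char.isCharacter_of_irr hχ
  have hres : IsCharacter H (fun h : H => χ h) := Char.isCharacter_restrict hχc H
  have hvan' : ∀ (h : H) (t : T), t ≠ 1 → χ (φ (h, t)) = 0 := by
    intro h t ht
    refine hvan _ ?_
    have hoh : orderOf (h : G) ∣ q := by
      rw [Subgroup.orderOf_coe, ← hH]; exact orderOf_dvd_natCard h
    obtain ⟨j, hj⟩ := (IsPGroup.iff_orderOf.mp hT) t
    have hj0 : j ≠ 0 := fun h0 => ht (orderOf_eq_one_iff.mp (by rw [hj, h0, pow_zero]))
    have hcop : Nat.Coprime (orderOf (h : G)) (orderOf (t : G)) := by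
      rw [Subgroup.orderOf_coe t, hj]
      exact Nat.Coprime.pow_right _
        (((Nat.coprime_primes hq hp.out).mpr hqp).coprime_dvd_left hoh)
    show p ∣ orderOf ((h : G) * (t : G))
    rw [(hcomm h h.2 t t.2).orderOf_mul_eq_mul_orderOf_of_coprime hcop, Subgroup.orderOf_coe t, hj]
    exact Dvd.dvd.mul_left (dvd_pow_self p hj0) _
  have hf0 : (f : ℂ) ≠ 0 := by rw [← hTf]; exact Nat.cast_ne_zero.mpr Nat.card_pos.ne'
  have hmult : ∀ ω : IrrCharacter H, ∃ b : ℕ,
      classInner (fun h : H => χ h) (ω : H → ℂ) = ((f * b : ℕ) : ℂ) := by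
    intro ω
    obtain ⟨b, hb⟩ := KnownChar.classInner_char_nat (Char.isCharacter_comp hχc φ)
      (Char.isCharacter_comp (Char.isCharacter_of_irr ω.2) (MonoidHom.fst H T))
    refine ⟨b, ?_⟩
    rw [classInner, Nat.card_prod, hTf] at hb
    rw [classInner, Nat.cast_mul, ← hb, Fintype.sum_prod_type, Nat.cast_mul, mul_inv]
    have hin : ∀ h : H, ∑ t : T, (χ ∘ φ) (h, t) * conj (((ω : H → ℂ) ∘ MonoidHom.fst H T) (h, t)) =
        χ h * conj ((ω : H → ℂ) h) := by
      intro h
      rw [Finset.sum_eq_single (1 : T)]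
      · have e : φ (h, 1) = (h : G) := by
          show (h : G) * ((1 : T) : G) = h
          rw [OneMemClass.coe_one, mul_one]
        simp only [Function.comp_apply, e]
        rfl
      · intro t _ ht
        simp [hvan' h t ht]
      · exact fun hne => absurd (Finset.mem_univ _) hne
    simp only [Function.comp_apply] at hin ⊢
    simp only [hin]
    field_simp
  choose b hb using hmult
  have hexp := Char.eq_sum_classInner_smul (Char.isCharacter_isClassFunction hres)
  have hcommH : ∀ a c : H, a * c = c * a := by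
    haveI := Fact.mk hq
    haveI : IsCyclic H := isCyclic_of_prime_card hH
    exact fun a c => (IsCyclic.commGroup (α := H)).mul_comm a c
  have hsum : n = f * ∑ ω : IrrCharacter H, b ω := by
    have h1 := congrFun hexp 1
    simp only [Finset.sum_apply, Pi.smul_apply, smul_eq_mul, hb,
      Char.irr_degree_one_of_comm hcommH (Subtype.prop _), mul_one] at h1
    rw [OneMemClass.coe_one, hn] at h1
    rw [Finset.mul_sum]
    exact_mod_cast h1
  have hqcard : (univ : Finset (IrrCharacter H)).card = q := by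
    rw [Finset.card_univ, ← Nat.card_eq_fintype_card, Char.card_irr_eq_card_conjClasses, ← hH]
    refine (Nat.card_eq_of_bijective ConjClasses.mk ⟨fun a c h => ?_,
      ConjClasses.mk_surjective⟩).symm
    obtain ⟨d, hd⟩ := isConj_iff.1 (ConjClasses.mk_eq_mk_iff_isConj.1 h)
    rw [← hd, hcommH d a, mul_inv_cancel_right]
  have hnorm : ∑ h : H, Complex.normSq (χ h) =
      (((q * (f ^ 2 * ∑ ω : IrrCharacter H, b ω ^ 2) : ℕ)) : ℝ) := by
    have h1 : ∑ h : H, χ h * conj (χ h) =
        (Nat.card H : ℂ) * classInner (fun h : H => χ h) (fun h : H => χ h) :=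
      Char.sum_mul_conj_eq_card_mul_classInner _ _
    rw [Char.classInner_eq_sum_mul_conj (Char.isCharacter_isClassFunction hres), hH] at h1
    simp only [hb, map_natCast, Complex.mul_conj] at h1
    apply Complex.ofReal_injective
    push_cast
    rw [h1]
    simp only [Nat.cast_mul, Finset.mul_sum]
    exact Finset.sum_congr rfl fun ω _ => by ring
  refine ⟨⟨_, hsum⟩, ?_⟩
  have hfpos : 0 < f := hTf ▸ Nat.card_pos
  have hdiv : n / f = ∑ ω : IrrCharacter H, b ω := by rw [hsum, Nat.mul_div_cancel_left _ hfpos]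
  have hb2 := sq_sum_bound (univ : Finset (IrrCharacter H)) b (hqcard ▸ hq.pos)
  rw [hqcard] at hb2
  rw [hdiv, ← Finset.sum_erase_add univ _ (mem_univ (1 : H))] at *
  rw [OneMemClass.coe_one, hn, Complex.normSq_natCast] at hnorm
  have h3 : f ^ 2 * ((∑ ω : IrrCharacter H, b ω) % q * (q - (∑ ω : IrrCharacter H, b ω) % q)) +
      n * n ≤ q * (f ^ 2 * ∑ ω : IrrCharacter H, b ω ^ 2) := by
    have := Nat.mul_le_mul_left (f ^ 2) hb2
    rw [hsum]
    nlinarith
  have h4 := (Nat.cast_le (α := ℝ)).mpr h3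
  push_cast at h4 hnorm ⊢
  linarith

/-- Disjoint conjugacy sweeps of subgroups of distinct prime orders bound the norm. -/
theorem normSq_bound [Fintype G] [DecidableEq G] (hχ : IsIrrCharacter G χ) {n : ℕ} (hn : χ 1 = n)
    {ι : Type*} [Fintype ι] (H : ι → Subgroup G) [∀ i, DecidablePred (· ∈ H i)] (q B : ι → ℕ) (A : ι → ℝ)
    (hq : ∀ i, (q i).Prime) (hinj : Function.Injective q) (hH : ∀ i, Nat.card (H i) = q i)
    (hB : ∀ i, Nat.card (Subgroup.normalizer (H i : Set G)) ≤ B i)
    (hA : ∀ i, A i ≤ ∑ h ∈ (Finset.univ : Finset G).filter (fun h => h ∈ H i ∧ h ≠ 1),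
      Complex.normSq (χ h))
    (s : Finset G) (hs : ∀ x ∈ s, x ≠ 1 ∧ ∀ i, orderOf x ≠ q i) :
    (n : ℝ) ^ 2 + ∑ i, (Nat.card G : ℝ) / B i * A i + ∑ x ∈ s, Complex.normSq (χ x) ≤
      Nat.card G := by
  classical
  set w : G → ℝ := fun g => Complex.normSq (χ g) with hw
  have hw0 : ∀ g, 0 ≤ w g := fun g => Complex.normSq_nonneg _
  have htot : ∑ g, w g = (Nat.card G : ℝ) := by
    have h1 := Char.sum_mul_conj_eq_card_mul_classInner χ χ
    rw [Char.classInner_irr_self hχ, mul_one] at h1
    simp only [Complex.mul_conj] at h1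
    exact_mod_cast h1
  let P : ι → Finset (G × G) := fun i =>
    (univ : Finset G) ×ˢ ((univ : Finset G).filter fun h => h ∈ H i ∧ h ≠ 1)
  let F : G × G → G := fun xh => xh.1 * xh.2 * xh.1⁻¹
  let S : ι → Finset G := fun i => (P i).image F
  have hord : ∀ i, ∀ h ∈ H i, h ≠ 1 → orderOf h = q i := by
    intro i h hh h1
    have hd : orderOf h ∣ q i := by rw [← hH i]; exact Subgroup.orderOf_dvd_natCard _ hh
    exact ((hq i).eq_one_or_self_of_dvd _ hd).resolve_left fun h' =>
      h1 (orderOf_eq_one_iff.mp h')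
  have hS : ∀ i, ∀ y ∈ S i, orderOf y = q i := by
    intro i y hy
    obtain ⟨⟨x, h⟩, hxh, rfl⟩ := mem_image.1 hy
    obtain ⟨-, hh⟩ := mem_product.1 hxh
    rw [show F (x, h) = MulAut.conj x h from rfl, MulEquiv.orderOf_eq]
    exact hord i h (mem_filter.1 hh).2.1 (mem_filter.1 hh).2.2
  have hsweep : ∀ i, (Nat.card G : ℝ) / B i * A i ≤ ∑ y ∈ S i, w y := by
    intro i
    have hN0 : (0 : ℝ) < B i := by
      exact_mod_cast lt_of_lt_of_le (Nat.card_pos (α := Subgroup.normalizer (H i : Set G))) (hB i)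
    rw [div_mul_eq_mul_div, div_le_iff₀ hN0]
    have h1 : ∑ xh ∈ P i, w (F xh) =
        (Nat.card G : ℝ) * ∑ h ∈ univ.filter (fun h => h ∈ H i ∧ h ≠ 1), w h := by
      rw [Finset.sum_product, Nat.card_eq_fintype_card, ← Finset.card_univ, ← nsmul_eq_mul,
        ← Finset.sum_const]
      refine Finset.sum_congr rfl fun x _ => Finset.sum_congr rfl fun h _ => ?_
      simp only [w, F, Char.irr_isClassFunction hχ h x]
    have h2 : ∑ xh ∈ P i, w (F xh) = ∑ y ∈ S i, ((P i).filter fun xh => F xh = y).card * w y := by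
      rw [← Finset.sum_fiberwise_of_maps_to (fun xh hxh => mem_image_of_mem F hxh)
        (fun xh => w (F xh))]
      refine Finset.sum_congr rfl fun y _ => ?_
      rw [Finset.sum_congr rfl fun xh hxh => congrArg w (mem_filter.1 hxh).2, Finset.sum_const,
        nsmul_eq_mul]
    have h3 : ∀ y ∈ S i, ((P i).filter fun xh => F xh = y).card ≤ B i := by
      intro y hy
      obtain ⟨⟨x₀, h₀⟩, hx₀, hy₀⟩ := mem_image.1 hy
      obtain ⟨hh₀, hh₀1⟩ := (mem_filter.1 (mem_product.1 hx₀).2).2
      have hgen : ∀ h ∈ H i, h ≠ 1 → Subgroup.zpowers h = H i := fun h hh h1 =>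
        Subgroup.eq_of_le_of_card_ge (Subgroup.zpowers_le.2 hh)
          (by rw [Nat.card_zpowers, hord i h hh h1, hH i])
      refine le_trans ?_ (hB i)
      rw [Nat.card_eq_fintype_card, Fintype.card_subtype]
      refine Finset.card_le_card_of_injOn (fun xh => x₀⁻¹ * xh.1) (fun xh hxh => ?_) ?_
      · obtain ⟨hP, he⟩ := mem_filter.1 hxh
        obtain ⟨hh, hh1⟩ := (mem_filter.1 (mem_product.1 hP).2).2
        refine mem_filter.2 ⟨mem_univ _, ?_⟩
        have hc : (x₀⁻¹ * xh.1) * xh.2 * (x₀⁻¹ * xh.1)⁻¹ = h₀ := by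
          have : xh.1 * xh.2 * xh.1⁻¹ = x₀ * h₀ * x₀⁻¹ := he.trans hy₀.symm
          rw [show (x₀⁻¹ * xh.1) * xh.2 * (x₀⁻¹ * xh.1)⁻¹ =
            x₀⁻¹ * (xh.1 * xh.2 * xh.1⁻¹) * x₀ by group, this]
          group
        rw [Subgroup.mem_normalizer_iff_map_conj_eq, ← hgen _ hh hh1, MonoidHom.map_zpowers]
        show Subgroup.zpowers ((x₀⁻¹ * xh.1) * xh.2 * (x₀⁻¹ * xh.1)⁻¹) = _
        rw [hc, hgen _ hh₀ hh₀1, hgen _ hh hh1]
      · intro a ha c hc he
        have e1 : a.1 = c.1 := mul_left_cancel he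
        refine Prod.ext e1 ?_
        have := (mem_filter.1 ha).2.trans (mem_filter.1 hc).2.symm
        simp only [F, e1] at this
        exact mul_left_cancel (mul_right_cancel this)
    calc (Nat.card G : ℝ) * A i ≤ ∑ xh ∈ P i, w (F xh) := by
          rw [h1]; exact mul_le_mul_of_nonneg_left (hA i) (Nat.cast_nonneg _)
      _ ≤ ∑ y ∈ S i, (B i : ℝ) * w y := by
          rw [h2]
          exact Finset.sum_le_sum fun y hy => mul_le_mul_of_nonneg_right
            (by exact_mod_cast h3 y hy) (hw0 y)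
      _ = (∑ y ∈ S i, w y) * B i := by rw [← Finset.mul_sum, mul_comm]
  have hdisj : ((univ : Finset ι) : Set ι).PairwiseDisjoint S := fun i _ j _ hij =>
    Finset.disjoint_left.2 fun y hi hj => hij (hinj ((hS i y hi).symm.trans (hS j y hj)))
  set U := (univ : Finset ι).biUnion S
  have h1U : (1 : G) ∉ U ∪ s := by
    rw [mem_union]
    rintro (h | h)
    · obtain ⟨i, -, hi⟩ := mem_biUnion.1 h
      have := hS i 1 hi
      rw [orderOf_one] at this
      exact (hq i).one_lt.ne this
    · exact (hs 1 h).1 rfl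
  have hUs : Disjoint U s := Finset.disjoint_left.2 fun y hy hys => by
    obtain ⟨i, -, hi⟩ := mem_biUnion.1 hy
    exact (hs y hys).2 i (hS i y hi)
  calc (n : ℝ) ^ 2 + ∑ i, (Nat.card G : ℝ) / B i * A i + ∑ x ∈ s, Complex.normSq (χ x)
      ≤ w 1 + (∑ y ∈ U, w y + ∑ y ∈ s, w y) := by
        rw [Finset.sum_biUnion hdisj, hw]
        simp only [hn, Complex.normSq_natCast]
        have := Finset.sum_le_sum fun i (_ : i ∈ univ) => hsweep i
        simp only [hw] at this
        nlinarith
    _ = ∑ y ∈ insert 1 (U ∪ s), w y := by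
        rw [Finset.sum_insert h1U, Finset.sum_union hUs]
    _ ≤ ∑ y, w y := Finset.sum_le_sum_of_subset_of_nonneg (subset_univ _) fun y _ _ => hw0 y
    _ = (Nat.card G : ℝ) := htot

end Norm

end Cfsg.Agent.SingleBlock
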