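import Cfsg.Agent.BlkChar.DeltaBase
import Mathlib

/-!
# The square root of `c ↦ |[M, c]|` for a symplectic coprime module

The twisted group algebra of a symplectic module carries an action of the acting group by
conjugation with explicit implementing elements; linearising their scalars gives the character of
the Weil representation, whose reciprocal is the generalized character we need.
-/

set_option autoImplicit false
set_option linter.style.haveILetI false
set_option linter.unusedSectionVars false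

open scoped ComplexConjugate Classical
open Finset

namespace Cfsg.Agent.Delta.Weil

universe u v

variable {p : ℕ} [Fact p.Prime] {M : Type v} [AddCommGroup M] [Module (ZMod p) M] [Fintype M]

/-- The additive character `t ↦ z ^ t`. -/
noncomputable def ad (z : ℂ) (t : ZMod p) : ℂ := z ^ t.val

theorem ad_add {z : ℂ} (hz : z ^ p = 1) (s t : ZMod p) : ad z (s + t) = ad z s * ad z t := by
  simp only [ad, ← pow_add, ZMod.val_add]
  exact (pow_eq_pow_mod _ hz).symm

theorem ad_zero {z : ℂ} : ad z (0 : ZMod p) = 1 := by simp [ad]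

theorem ad_pow {z : ℂ} (hz : z ^ p = 1) (t : ZMod p) : ad z t ^ p = 1 := by
  rw [ad, ← pow_mul, mul_comm, pow_mul, hz, one_pow]

theorem ad_isIntegral {z : ℂ} (hz : z ^ p = 1) (t : ZMod p) : IsIntegral ℤ (ad z t) :=
  IsIntegral.of_pow (Fact.out : p.Prime).pos (by rw [ad_pow hz]; exact isIntegral_one)

variable {z : ℂ} {B : LinearMap.BilinForm (ZMod p) M}

/-- The twisted convolution. -/
noncomputable def cv (z : ℂ) (B : LinearMap.BilinForm (ZMod p) M) (f g : M → ℂ) : M → ℂ :=
  fun s => ∑ u : M, f u * g (s - u) * ad z (B u (s - u))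

/-- The delta function. -/
noncomputable def pt (w : M) : M → ℂ := Pi.single w 1

theorem cv_assoc (hz : z ^ p = 1) (f g k : M → ℂ) :
    cv z B (cv z B f g) k = cv z B f (cv z B g k) := by
  ext s
  simp only [cv, Finset.sum_mul, Finset.mul_sum]
  rw [Finset.sum_comm]
  refine Finset.sum_congr rfl fun t _ => ?_
  refine Fintype.sum_equiv (Equiv.subRight t) _ _ fun u => ?_
  simp only [Equiv.subRight_apply]
  have h1 : s - t - (u - t) = s - u := by abel
  rw [h1]
  have h2 : B t (u - t) + B u (s - u) = B (u - t) (s - u) + B t (s - t) := by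
    simp only [map_sub, LinearMap.sub_apply]; abel
  have h3 : ad z (B t (u - t)) * ad z (B u (s - u)) =
      ad z (B (u - t) (s - u)) * ad z (B t (s - t)) := by rw [← ad_add hz, h2, ad_add hz]
  linear_combination (f t * g (u - t) * k (s - u)) * h3

theorem cv_pt_right (f : M → ℂ) (w s : M) :
    cv z B f (pt w) s = f (s - w) * ad z (B (s - w) w) := by
  rw [cv, Finset.sum_eq_single (s - w)]
  · simp [pt]
  · intro u _ hu
    have : s - u ≠ w := fun h => hu (by rw [← h]; abel)
    simp [pt, this]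
  · exact fun h => absurd (Finset.mem_univ _) h

theorem cv_pt_left (f : M → ℂ) (w s : M) :
    cv z B (pt w) f s = f (s - w) * ad z (B w (s - w)) := by
  rw [cv, Finset.sum_eq_single w]
  · simp [pt]
  · intro u _ hu; simp [pt, hu]
  · exact fun h => absurd (Finset.mem_univ _) h

theorem cv_pt_zero_left (f : M → ℂ) : cv z B (pt 0) f = f := by
  ext s; simp [cv_pt_left, ad_zero]

theorem cv_pt_zero_right (f : M → ℂ) : cv z B f (pt 0) = f := by
  ext s; simp [cv_pt_right, ad_zero]

theorem cv_smul_left (a : ℂ) (f g : M → ℂ) : cv z B (a • f) g = a • cv z B f g := by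
  ext s; simp [cv, Finset.mul_sum, mul_assoc]

theorem cv_smul_right (a : ℂ) (f g : M → ℂ) : cv z B f (a • g) = a • cv z B f g := by
  ext s; simp [cv, Finset.mul_sum, mul_left_comm, mul_assoc]

theorem cv_zero_left (g : M → ℂ) : cv z B 0 g = 0 := by
  ext s; simp [cv]

/-- Left multiplication. -/
noncomputable def lmul (z : ℂ) (B : LinearMap.BilinForm (ZMod p) M) (f : M → ℂ) :
    (M → ℂ) →ₗ[ℂ] (M → ℂ) where
  toFun g := cv z B f g
  map_add' g g' := by ext s; simp [cv, mul_add, add_mul, Finset.sum_add_distrib]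
  map_smul' a g := cv_smul_right a f g

theorem lmul_cv (hz : z ^ p = 1) (f g : M → ℂ) :
    lmul z B (cv z B f g) = lmul z B f * lmul z B g :=
  LinearMap.ext fun k => cv_assoc hz f g k

theorem lmul_smul (a : ℂ) (f : M → ℂ) : lmul z B (a • f) = a • lmul z B f :=
  LinearMap.ext fun k => cv_smul_left a f k

theorem lmul_pt : lmul z B (pt 0) = 1 := LinearMap.ext fun k => cv_pt_zero_left k

theorem trace_lmul (f : M → ℂ) :
    LinearMap.trace ℂ (M → ℂ) (lmul z B f) = (Nat.card M : ℂ) * f 0 := by
  rw [LinearMap.trace_eq_matrix_trace ℂ (Pi.basisFun ℂ M), Matrix.trace]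
  have h : ∀ s : M,
      (LinearMap.toMatrix (Pi.basisFun ℂ M) (Pi.basisFun ℂ M) (lmul z B f)).diag s = f 0 := by
    intro s
    rw [Matrix.diag_apply, LinearMap.toMatrix_apply]
    simp only [Pi.basisFun_apply, Pi.basisFun_repr]
    show cv z B f (pt s) s = f 0
    rw [cv_pt_right, sub_self, map_zero, LinearMap.zero_apply, ad_zero, mul_one]
  rw [Finset.sum_congr rfl fun s _ => h s, Finset.sum_const, Finset.card_univ, nsmul_eq_mul,
    Nat.card_eq_fintype_card]

variable {H : Type u} [Group H] {ρ : Representation (ZMod p) H M}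

/-- The implementing element of `h`, normalised at `0`. -/
noncomputable def x0 (z : ℂ) (B : LinearMap.BilinForm (ZMod p) M)
    (ρ : Representation (ZMod p) H M) (h : H) : M → ℂ := fun s =>
  if hs : s ∈ comSub ρ h then ad z (B (-ρ h (exists_of_mem_comSub hs).choose) s) else 0

variable (hB : ∀ g : H, ∀ x y : M, B (ρ g x) (ρ g y) = B x y)

include hB

theorem x0_apply (h : H) (w : M) :
    x0 z B ρ h (w - ρ h w) = ad z (B (-ρ h w) (w - ρ h w)) := by
  have hs := sub_mem_comSub ρ h w
  rw [x0, dif_pos hs]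
  set y := (exists_of_mem_comSub hs).choose
  have hy : w - ρ h w = y - ρ h y := (exists_of_mem_comSub hs).choose_spec
  have ht : y - w ∈ fixSub ρ h := by
    rw [mem_fixSub, map_sub]
    have h' : (y - w) - (ρ h y - ρ h w) = (y - ρ h y) - (w - ρ h w) := by abel
    rw [← hy, sub_self, sub_eq_zero] at h'
    exact h'.symm
  have h0 := inner_fix_com ρ hB ht hs
  have h1 : ρ h (y - w) = y - w := mem_fixSub.mp ht
  have h2 : -ρ h y = -ρ h w - (y - w) := by
    rw [← h1, map_sub]; abel
  congr 1
  rw [h2, map_sub (B), LinearMap.sub_apply, h0, sub_zero]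

theorem x0_zero (h : H) : x0 z B ρ h 0 = 1 := by
  have := x0_apply (z := z) hB h 0
  simpa [ad_zero] using this

theorem x0_one : x0 z B ρ (1 : H) = pt 0 := by
  ext s
  by_cases hs : s = 0
  · subst hs; rw [x0_zero hB]; simp [pt]
  · have hns : s ∉ comSub ρ (1 : H) := by
      intro h
      obtain ⟨y, rfl⟩ := exists_of_mem_comSub h
      simp at hs
    rw [x0, dif_neg hns]; simp [pt, hs]

theorem x0_intertwines (hz : z ^ p = 1) (h : H) (w : M) :
    cv z B (x0 z B ρ h) (pt w) = cv z B (pt (ρ h w)) (x0 z B ρ h) := by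
  ext s
  rw [cv_pt_right, cv_pt_left]
  by_cases hs : s - w ∈ comSub ρ h
  · obtain ⟨y, hy⟩ := exists_of_mem_comSub hs
    have hs' : s - ρ h w = (y + w) - ρ h (y + w) := by
      rw [map_add, ← sub_add_sub_cancel s w (ρ h w), hy]; abel
    rw [hy, hs', x0_apply hB, x0_apply hB, ← ad_add hz, ← ad_add hz]
    congr 1
    simp only [map_add, map_neg, map_sub, LinearMap.add_apply, LinearMap.neg_apply,
      LinearMap.sub_apply, hB]
    abel
  · have hs' : s - ρ h w ∉ comSub ρ h := fun hm => hs (by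
      have h1 := Submodule.sub_mem _ hm (sub_mem_comSub ρ h w)
      have h2 : s - ρ h w - (w - ρ h w) = s - w := by abel
      rwa [h2] at h1)
    simp [x0, hs, hs']

variable [Fintype H]

/-- The alternating form of `B`. -/
abbrev alt (B : LinearMap.BilinForm (ZMod p) M) : LinearMap.BilinForm (ZMod p) M := B - B.flip

variable (hA : ∀ x : M, (∀ y, alt B x y = 0) → x = 0)
variable (hz : IsPrimitiveRoot z p) (hpH : ¬ p ∣ Nat.card H)

include hA hz hpH

theorem eq_smul_x0 (h : H) (f : M → ℂ)
    (hf : ∀ w, cv z B f (pt w) = cv z B (pt (ρ h w)) f) : f = f 0 • x0 z B ρ h := by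
  have hz1 := hz.pow_eq_one
  have hAinv : ∀ g : H, ∀ x y : M, alt B (ρ g x) (ρ g y) = alt B x y := fun g x y => by
    simp [alt, hB]
  ext s
  by_cases hs : s ∈ comSub ρ h
  · obtain ⟨w, rfl⟩ := exists_of_mem_comSub hs
    have h1 := congrFun (hf w) w
    rw [cv_pt_right, cv_pt_left, sub_self, map_zero, LinearMap.zero_apply, ad_zero, mul_one] at h1
    rw [Pi.smul_apply, smul_eq_mul, x0_apply hB, h1, mul_assoc, ← ad_add hz1, ← LinearMap.add_apply,
      ← map_add, add_neg_cancel, map_zero, LinearMap.zero_apply, ad_zero, mul_one]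
  · rw [Pi.smul_apply, smul_eq_mul, x0, dif_neg hs, mul_zero]
    by_contra hfs
    refine hs (mem_comSub_of_orth hpH ρ hAinv hA fun t ht => ?_)
    have h1 := congrFun (hf t) (s + t)
    rw [cv_pt_right, cv_pt_left, mem_fixSub.mp ht, add_sub_cancel_right] at h1
    have h2 := mul_left_cancel₀ hfs h1
    have h3 : ad z (alt B s t) * ad z (B t s) = ad z (B t s) := by
      rw [← ad_add hz1]
      show ad z (B s t - B t s + B t s) = _
      rw [sub_add_cancel, h2]
    have h4 : ad z (B t s) ≠ 0 := fun h0 => by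
      have := ad_pow hz1 (B t s)
      rw [h0, zero_pow (Fact.out : p.Prime).ne_zero] at this
      exact zero_ne_one this
    have h5 : ad z (alt B s t) = 1 := (mul_eq_right₀ h4).mp h3
    have h6 := Nat.eq_zero_of_dvd_of_lt ((hz.pow_eq_one_iff_dvd _).mp h5) (ZMod.val_lt _)
    exact (ZMod.val_eq_zero _).mp h6

/-- The cocycle. -/
noncomputable def gam (z : ℂ) (B : LinearMap.BilinForm (ZMod p) M)
    (ρ : Representation (ZMod p) H M) (g h : H) : ℂ := cv z B (x0 z B ρ g) (x0 z B ρ h) 0

theorem cv_x0 (g h : H) :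
    cv z B (x0 z B ρ g) (x0 z B ρ h) = gam z B ρ g h • x0 z B ρ (g * h) := by
  have hz1 := hz.pow_eq_one
  refine eq_smul_x0 hB hA hz hpH (g * h) _ fun w => ?_
  rw [cv_assoc hz1, x0_intertwines hB hz1, ← cv_assoc hz1, x0_intertwines hB hz1, cv_assoc hz1,
    map_mul, Module.End.mul_apply]

theorem gam_inv (h : H) : gam z B ρ h h⁻¹ = (Nat.card ↥(comSub ρ h) : ℂ) := by
  have hz1 := hz.pow_eq_one
  rw [gam, cv]
  have key : ∀ u : M, x0 z B ρ h u * x0 z B ρ h⁻¹ (0 - u) * ad z (B u (0 - u)) =
      if u ∈ comSub ρ h then 1 else 0 := by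
    intro u
    split_ifs with hu
    · obtain ⟨y, rfl⟩ := exists_of_mem_comSub hu
      have h1 : 0 - (y - ρ h y) = ρ h y - ρ h⁻¹ (ρ h y) := by
        rw [Representation.inv_self_apply]; abel
      rw [h1, x0_apply hB, x0_apply hB, Representation.inv_self_apply, ← ad_add hz1, ← ad_add hz1]
      convert ad_zero (p := p) (z := z) using 2
      simp only [map_neg, map_sub, LinearMap.neg_apply, LinearMap.sub_apply, hB]
      abel
    · simp [x0, hu]
  rw [Finset.sum_congr rfl fun u _ => key u, ← Finset.sum_filter, Finset.sum_const, nsmul_one,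
    Nat.card_eq_fintype_card, Fintype.card_subtype]

theorem gam_ne_zero (g h : H) : gam z B ρ g h ≠ 0 := by
  have hz1 := hz.pow_eq_one
  intro h0
  have h1 := cv_x0 hB hA hz hpH g h
  rw [h0, zero_smul] at h1
  have h2 := cv_assoc (B := B) hz1 (x0 z B ρ g⁻¹) (x0 z B ρ g) (x0 z B ρ h)
  rw [h1, cv_x0 hB hA hz hpH g⁻¹ g, cv_smul_left, inv_mul_cancel, x0_one hB, cv_pt_zero_left] at h2
  have h3 := congrFun h2 0
  simp only [Pi.smul_apply, smul_eq_mul, x0_zero hB, mul_one] at h3
  have h4 : cv z B (x0 z B ρ g⁻¹) 0 0 = 0 := by simp [cv]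
  rw [h4] at h3
  have h5 := gam_inv hB hA hz hpH g⁻¹
  rw [inv_inv, h3] at h5
  exact Nat.card_pos.ne' (Nat.cast_eq_zero.mp h5.symm)

theorem gam_cocycle (g h k : H) :
    gam z B ρ g h * gam z B ρ (g * h) k = gam z B ρ h k * gam z B ρ g (h * k) := by
  have h1 := cv_assoc (B := B) hz.pow_eq_one (x0 z B ρ g) (x0 z B ρ h) (x0 z B ρ k)
  rw [cv_x0 hB hA hz hpH g h, cv_x0 hB hA hz hpH h k, cv_smul_left, cv_smul_right,
    cv_x0 hB hA hz hpH (g * h) k, cv_x0 hB hA hz hpH g (h * k), smul_smul, smul_smul,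
    mul_assoc g h k] at h1
  simpa [x0_zero hB] using congrFun h1 0

theorem det_ne_zero (h : H) : LinearMap.det (lmul z B (x0 z B ρ h)) ≠ 0 := by
  have h1 := congrArg LinearMap.det (lmul_cv (B := B) hz.pow_eq_one (x0 z B ρ h) (x0 z B ρ h⁻¹))
  rw [cv_x0 hB hA hz hpH, lmul_smul, mul_inv_cancel, x0_one hB, lmul_pt, LinearMap.det_smul,
    map_one, mul_one, map_mul] at h1
  intro h0
  rw [h0, zero_mul, pow_eq_zero_iff'] at h1
  exact gam_ne_zero hB hA hz hpH h h⁻¹ h1.1

theorem exists_eps : ∃ ε : H → ℂ, (∀ h, ε h ≠ 0) ∧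
    ∀ g h, gam z B ρ g h * ε (g * h) = ε g * ε h := by
  have hz1 := hz.pow_eq_one
  set D : H → ℂ := fun h => LinearMap.det (lmul z B (x0 z B ρ h)) with hD
  set P : H → ℂ := fun g => ∏ k : H, gam z B ρ g k with hP
  set N := Fintype.card M
  set m := Fintype.card H
  have hD0 : ∀ h, D h ≠ 0 := det_ne_zero hB hA hz hpH
  have hP0 : ∀ h, P h ≠ 0 := fun h => Finset.prod_ne_zero_iff.mpr fun k _ => gam_ne_zero hB hA hz hpH h k
  have e1 : ∀ g h, gam z B ρ g h ^ N * D (g * h) = D g * D h := fun g h => by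
    have h1 := congrArg LinearMap.det (lmul_cv (B := B) hz1 (x0 z B ρ g) (x0 z B ρ h))
    rw [cv_x0 hB hA hz hpH, lmul_smul, LinearMap.det_smul, map_mul,
      Module.finrank_fintype_fun_eq_card] at h1
    exact h1
  have e2 : ∀ g h, gam z B ρ g h ^ m * P (g * h) = P g * P h := fun g h => by
    simp only [hP]
    rw [← Fintype.prod_equiv (Equiv.mulLeft h) (fun k => gam z B ρ g (h * k)) _ (fun k => rfl),
      ← Finset.prod_mul_distrib, show gam z B ρ g h ^ m = ∏ _k : H, gam z B ρ g h by simp [m],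
      ← Finset.prod_mul_distrib]
    exact Finset.prod_congr rfl fun k _ => (gam_cocycle hB hA hz hpH g h k).trans (mul_comm _ _)
  have hcop : Nat.Coprime N m := by
    obtain ⟨j, hj⟩ := exists_eq_pow_card (⊤ : Submodule (ZMod p) M)
    rw [show N = p ^ j by rw [← hj, Nat.card_congr Submodule.topEquiv.toEquiv, Nat.card_eq_fintype_card]]
    exact Nat.Coprime.pow_left _ ((Nat.Prime.coprime_iff_not_dvd Fact.out).mpr
      (by simpa [m, Nat.card_eq_fintype_card] using hpH))
  set a := Nat.gcdA N m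
  set b := Nat.gcdB N m
  have hab : (N : ℤ) * a + (m : ℤ) * b = 1 := by
    have := Nat.gcd_eq_gcd_ab N m
    rw [hcop] at this
    exact_mod_cast this.symm
  refine ⟨fun h => D h ^ a * P h ^ b, fun h => mul_ne_zero (zpow_ne_zero _ (hD0 h))
    (zpow_ne_zero _ (hP0 h)), fun g h => ?_⟩
  have hg : gam z B ρ g h = (gam z B ρ g h ^ N) ^ a * (gam z B ρ g h ^ m) ^ b := by
    rw [← zpow_natCast _ N, ← zpow_natCast _ m, ← zpow_mul, ← zpow_mul,
      ← zpow_add₀ (gam_ne_zero hB hA hz hpH g h), hab, zpow_one]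
  calc gam z B ρ g h * (D (g * h) ^ a * P (g * h) ^ b)
      = ((gam z B ρ g h ^ N) ^ a * (gam z B ρ g h ^ m) ^ b) * (D (g * h) ^ a * P (g * h) ^ b) := by
        rw [← hg]
    _ = (gam z B ρ g h ^ N * D (g * h)) ^ a * (gam z B ρ g h ^ m * P (g * h)) ^ b := by
        rw [mul_zpow, mul_zpow]; ring
    _ = _ := by rw [e1, e2, mul_zpow, mul_zpow]; ring

theorem exists_isDelta {Mi : Ideal AlgInt} (hM : IsPModular p Mi) (n : ℕ) [NeZero n]
    (hn : Nat.card H ∣ n) :
    ∃ δ : (ZMod n)ˣ → H → ℂ, IsDelta ρ Mi n δ := by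
  haveI := Block.isPrime_of_isPModular hM
  have hz1 := hz.pow_eq_one
  obtain ⟨ε, hε0, hεm⟩ := exists_eps hB hA hz hpH
  have h11 : gam z B ρ 1 1 = 1 := by rw [gam, x0_one hB, cv_pt_zero_left]; simp [pt]
  have hε1 : ε 1 = 1 := by
    have := hεm 1 1
    rw [h11, one_mul, one_mul] at this
    exact (mul_eq_right₀ (hε0 1)).mp this.symm
  let R : Representation ℂ H (M → ℂ) :=
    { toFun := fun h => (ε h)⁻¹ • lmul z B (x0 z B ρ h)
      map_one' := by rw [hε1, inv_one, one_smul, x0_one hB, lmul_pt]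
      map_mul' := fun g h => by
        rw [smul_mul_smul_comm, ← lmul_cv hz1, cv_x0 hB hA hz hpH, lmul_smul, smul_smul]
        congr 1
        rw [← mul_inv, ← hεm g h]
        field_simp [hε0 (g * h), gam_ne_zero hB hA hz hpH g h] }
  set Φ : H → ℂ := R.character with hΦ
  have hN : (Nat.card M : ℂ) ≠ 0 := Nat.cast_ne_zero.mpr Nat.card_pos.ne'
  have hΦε : ∀ h, Φ h * ε h = (Nat.card M : ℂ) := fun h => by
    show LinearMap.trace ℂ (M → ℂ) ((ε h)⁻¹ • lmul z B (x0 z B ρ h)) * ε h = _
    rw [map_smul, trace_lmul, x0_zero hB, mul_one, smul_eq_mul]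
    field_simp [hε0 h]
  have hΦne : ∀ h, Φ h ≠ 0 := fun h h0 => hN (by rw [← hΦε h, h0, zero_mul])
  have hεΦ : ∀ h, ε h = (Nat.card M : ℂ) / Φ h := fun h => by
    rw [eq_div_iff (hΦne h), mul_comm, hΦε]
  have hK : ∀ h, ε h * conj (ε h) = (Nat.card ↥(comSub ρ h) : ℂ) := fun h => by
    have h2 : conj (ε h) = ε h⁻¹ := by
      rw [hεΦ, hεΦ h⁻¹, map_div₀, Complex.conj_natCast, hΦ, Char.character_inv]
    rw [h2, ← hεm, mul_inv_cancel, hε1, mul_one, gam_inv hB hA hz hpH]
  -- powers
  set F : H → ℕ → M → ℂ := fun h i => (cv z B (x0 z B ρ h))^[i] (pt 0) with hF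
  have hFs : ∀ h i, F h (i + 1) = cv z B (x0 z B ρ h) (F h i) := fun h i =>
    Function.iterate_succ_apply' _ _ _
  have hFeq : ∀ h i, F h i = (ε h ^ i / ε (h ^ i)) • x0 z B ρ (h ^ i) := by
    intro h i
    induction i with
    | zero => simp [hF, hε1, x0_one hB]
    | succ i ih =>
      rw [hFs, ih, cv_smul_right, cv_x0 hB hA hz hpH, smul_smul, ← pow_succ']
      congr 1
      have h1 : gam z B ρ h (h ^ i) * ε (h ^ (i + 1)) = ε h * ε (h ^ i) := by
        rw [pow_succ']; exact hεm h (h ^ i)
      have hne := hε0 (h ^ (i + 1))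
      have hne' := hε0 (h ^ i)
      field_simp
      linear_combination (ε h ^ i) * h1
  have hx0int : ∀ h s, IsIntegral ℤ (x0 z B ρ h s) := fun h s => by
    unfold x0
    split_ifs
    · exact ad_isIntegral hz1 _
    · exact isIntegral_zero
  have hFint : ∀ h i s, IsIntegral ℤ (F h i s) := by
    intro h i
    induction i with
    | zero =>
      intro s
      simp only [hF, Function.iterate_zero, id_eq, pt, Pi.single_apply]
      split_ifs
      · exact isIntegral_one
      · exact isIntegral_zero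
    | succ i ih =>
      intro s
      rw [hFs]
      exact IsIntegral.sum _ fun u _ => ((hx0int h u).mul (ih _)).mul (ad_isIntegral hz1 _)
  have hεpow : ∀ h, ε h ^ orderOf h = F h (orderOf h) 0 := fun h => by
    rw [hFeq, pow_orderOf_eq_one, hε1, div_one, x0_one hB]
    simp [pt]
  have hεint : ∀ h, IsIntegral ℤ (ε h) := fun h =>
    IsIntegral.of_pow (orderOf_pos h) (hεpow h ▸ hFint h _ 0)
  have hsmall : ∀ h, comSub ρ h ≠ ⊥ → MemLocalIdeal Mi (ε h) := by
    intro h hne
    have hrone : ∀ t : ZMod p, MemLocalIdeal Mi (ad z t - 1) := fun t =>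
      root_sub_one_mem hM (ad_pow hz1 t)
    have h2 : ∀ s, MemLocalIdeal Mi (F h 2 s) := by
      intro s
      have e2 : F h 2 = cv z B (x0 z B ρ h) (x0 z B ρ h) := by
        rw [hFs, hFs]; simp [hF, cv_pt_zero_right]
      rw [e2]
      have hterm : ∀ u, MemLocalIdeal Mi
          (x0 z B ρ h u * x0 z B ρ h (s - u) * ad z (B u (s - u)) -
            if u ∈ comSub ρ h ∧ s - u ∈ comSub ρ h then 1 else 0) := by
        intro u
        split_ifs with hu
        · rw [x0, dif_pos hu.1, x0, dif_pos hu.2, ← ad_add hz1, ← ad_add hz1]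
          exact hrone _
        · rw [sub_zero]
          rcases not_and_or.mp hu with hu | hu
          · simp [x0, hu, Block.memLocalIdeal_zero]
          · simp [x0, hu, Block.memLocalIdeal_zero]
      have hsum := Block.memLocalIdeal_sum univ _ fun u (_ : u ∈ univ) => hterm u
      rw [Finset.sum_sub_distrib, ← Finset.sum_filter, Finset.sum_const, nsmul_one] at hsum
      have hcard : MemLocalIdeal Mi
          (((univ.filter fun u => u ∈ comSub ρ h ∧ s - u ∈ comSub ρ h).card : ℕ) : ℂ) := by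
        rw [Block.memLocalIdeal_natCast_iff hM]
        by_cases hs : s ∈ comSub ρ h
        · rw [show (univ.filter fun u => u ∈ comSub ρ h ∧ s - u ∈ comSub ρ h) =
            univ.filter (fun u => u ∈ comSub ρ h) from Finset.filter_congr fun u _ =>
              ⟨fun hu => hu.1, fun hu => ⟨hu, Submodule.sub_mem _ hs hu⟩⟩]
          rw [← Fintype.card_subtype, ← Nat.card_eq_fintype_card]
          exact dvd_card_of_ne_bot hne
        · rw [show (univ.filter fun u => u ∈ comSub ρ h ∧ s - u ∈ comSub ρ h) = ∅ from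
            Finset.filter_eq_empty_iff.mpr fun u _ hu =>
              hs (by simpa using Submodule.add_mem _ hu.1 hu.2)]
          simp
      have := Block.memLocalIdeal_add hsum hcard
      rwa [sub_add_cancel] at this
    have hall : ∀ i s, MemLocalIdeal Mi (F h (i + 2) s) := by
      intro i
      induction i with
      | zero => exact h2
      | succ i ih =>
        intro s
        rw [show i + 1 + 2 = (i + 2) + 1 from rfl, hFs]
        refine Block.memLocalIdeal_sum _ _ fun u _ => ?_
        exact Block.memLocalIdeal_mul_right (Block.memLocalIdeal_mul_left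
          (Block.memLocalRing_of_isIntegral (hx0int h u)) (ih _))
          (Block.memLocalRing_of_isIntegral (ad_isIntegral hz1 _))
    have hord : 2 ≤ orderOf h := by
      by_contra hlt
      have h1 : orderOf h = 1 := by have := orderOf_pos h; omega
      refine hne ((Submodule.eq_bot_iff _).mpr fun k hk => ?_)
      obtain ⟨y, rfl⟩ := exists_of_mem_comSub hk
      rw [orderOf_eq_one_iff.mp h1, map_one, Module.End.one_apply, sub_self]
    have h3 := hall (orderOf h - 2) 0
    rw [Nat.sub_add_cancel hord, ← hεpow] at h3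
    rw [← Block.red_eq_zero_iff (z := ⟨ε h, Block.memLocalRing_of_isIntegral (hεint h)⟩)]
    have h4 : Block.red Mi (⟨ε h, Block.memLocalRing_of_isIntegral (hεint h)⟩ ^ orderOf h) = 0 := by
      rw [Block.red_eq_zero_iff]; simpa using h3
    rw [map_pow] at h4
    exact pow_eq_zero_iff (orderOf_pos h).ne' |>.mp h4
  have hεcl : IsClassFunction H ε := fun g h => by
    rw [hεΦ, hεΦ g, hΦ, Representation.char_conj]
  refine ⟨fun _ c => ε c, ⟨fun _ => ?_, fun _ c => hεint c, fun _ c => ?_, fun _ c hc => hsmall c hc,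
    fun _ => hε1, Nat.card M, Nat.card_pos.ne', fun c => ?_⟩⟩
  · obtain ⟨d, hd⟩ := exists_eq_pow_card (⊤ : Submodule (ZMod p) M)
    rw [Nat.card_congr Submodule.topEquiv.toEquiv] at hd
    have hchar : IsCharacter H Φ := Char.isCharacter_character R
    refine IntCF.of_mul_ppow (p := p) Fact.out hpH hεcl hεint (g := Φ * fun c => conj (Φ c))
      (mul_mem (IntCF.of_isCharacter hchar) (IntCF.of_isCharacter (Char.isCharacter_conjFun hchar)))
      (e := 2 * d) (fun c => ?_) ?_
    · obtain ⟨j, hj⟩ := exists_eq_pow_card (comSub ρ c)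
      have hjd : j ≤ 2 * d := by
        have h1 := Nat.card_le_card_of_injective _ (comSub ρ c).injective_subtype
        rw [hj, hd] at h1
        have := (Nat.pow_le_pow_iff_right (Fact.out : p.Prime).one_lt).mp h1
        omega
      refine ⟨2 * d - j, Nat.sub_le _ _, ?_⟩
      have hsq : (ε c * conj (ε c)) * (Φ c * conj (Φ c)) = ((p ^ (2 * d) : ℕ) : ℂ) := by
        have h1 := hΦε c
        have h2 : conj (Φ c) * conj (ε c) = (Nat.card M : ℂ) := by
          rw [← map_mul, h1, Complex.conj_natCast]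
        rw [mul_comm 2 d, pow_mul, Nat.cast_pow, ← hd, sq]
        linear_combination (Nat.card M : ℂ) * h2 + conj (Φ c) * conj (ε c) * h1
      rw [hK, hj] at hsq
      rw [Pi.mul_apply]
      refine mul_left_cancel₀ (Nat.cast_ne_zero.mpr (pow_ne_zero j (Fact.out : p.Prime).ne_zero)) ?_
      rw [hsq, ← Nat.cast_mul, ← pow_add, Nat.add_sub_cancel' hjd]
    · have : ε * (Φ * fun c => conj (Φ c)) = (Nat.card M : ℂ) • fun c => conj (Φ c) := by
        ext c
        simp only [Pi.mul_apply, Pi.smul_apply, smul_eq_mul]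
        rw [← mul_assoc, mul_comm (ε c), hΦε]
      rw [this]
      exact IntCF.smul_mem (IntCF.of_isCharacter (Char.isCharacter_conjFun hchar))
        (Char.isIntegral_of_nat _)
  · have := hK c
    rw [Complex.mul_conj, Complex.normSq_eq_norm_sq] at this
    exact_mod_cast this
  · obtain ⟨P, hP⟩ := GalAvg.isCharacter_pow_mem (n := n)
      (Char.isCharacter_conjFun (Char.isCharacter_character R)) c
      (by
        obtain ⟨k, hk⟩ := hn
        rw [hk, pow_mul, pow_card_eq_one', one_pow])
    refine ⟨(Nat.card ↥(comSub ρ c) : Polynomial ℤ) * P, funext fun a => ?_⟩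
    have hval := congrFun hP a
    simp only [AlgHom.toRingHom_eq_coe, RingHom.coe_coe] at hval ⊢
    rw [map_mul, map_natCast, Pi.mul_apply, hval, Pi.natCast_apply]
    set c' := c ^ (a : ZMod n).val
    have hcard : Nat.card ↥(comSub ρ c) = Nat.card ↥(comSub ρ c') := by
      have h1 := card_mul_card ρ c
      have h2 := card_mul_card ρ c'
      rw [show fixSub ρ c' = fixSub ρ c from fixSub_eq_of_pow' ρ hn a c] at h2
      exact mul_left_cancel₀ Nat.card_pos.ne' (h1.trans h2.symm)
    rw [hcard, ← hK]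
    have h3 : conj (Φ c') * conj (ε c') = (Nat.card M : ℂ) := by
      rw [← map_mul, hΦε, Complex.conj_natCast]
    linear_combination ε c' * h3

end Cfsg.Agent.Delta.Weil
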